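import Cfsg.Agent.Lib.Block.LocalRing
import Cfsg.Agent.Lib.Char.Kernel
import Mathlib.LinearAlgebra.Charpoly.Basic
import Mathlib.RingTheory.Nakayama
import Mathlib.LinearAlgebra.Eigenspace.Basic
import Mathlib.LinearAlgebra.Eigenspace.Minpoly
import Mathlib.RingTheory.LocalRing.MaximalIdeal.Basic
import Mathlib.RingTheory.Ideal.Quotient.Operations

/-!
# Reduction of a complex representation through a lattice
-/

set_option autoImplicit false
set_option linter.unusedSectionVars false
set_option linter.style.haveILetI false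

namespace Cfsg.Agent.Lib.DefectOne

open Cfsg Cfsg.Agent.Lib

universe u

variable {p : ℕ} {G : Type u} [Group G] [Finite G] (M : Ideal AlgInt) [M.IsPrime] {d : ℕ}
  (ρ : Representation ℂ G (Fin d → ℂ))

/-- The lattice spanned by the translates of the standard basis. -/
def latt : Submodule (Block.locRing M) (Fin d → ℂ) :=
  Submodule.span (Block.locRing M)
    (Set.range fun q : G × Fin d => ρ q.1 (Pi.single q.2 1))

theorem latt_invariant (g : G) : ∀ v ∈ latt M ρ, ρ g v ∈ latt M ρ := by
  intro v hv
  have h : latt M ρ ≤ (latt M ρ).comap ((ρ g).restrictScalars (Block.locRing M)) := by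
    refine Submodule.span_le.2 ?_
    rintro _ ⟨⟨h, i⟩, rfl⟩
    show ρ g (ρ h (Pi.single i 1)) ∈ latt M ρ
    rw [← Module.End.mul_apply, ← map_mul]
    exact Submodule.subset_span ⟨(g * h, i), rfl⟩
  exact h hv

/-- The action on the lattice. -/
noncomputable def lattRep (g : G) : Module.End (Block.locRing M) (latt M ρ) :=
  ((ρ g).restrictScalars (Block.locRing M)).restrict (latt_invariant M ρ g)

theorem coe_lattRep (g : G) (v : latt M ρ) :
    ((lattRep M ρ g v : latt M ρ) : Fin d → ℂ) = ρ g (v : Fin d → ℂ) := rfl

/-- The reduction of the lattice. -/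
abbrev redMod : Type :=
  (latt M ρ) ⧸ (Block.locIdeal M • (⊤ : Submodule (Block.locRing M) (latt M ρ)))

/-- The class of a lattice element. -/
noncomputable abbrev lattMk (v : latt M ρ) : redMod M ρ :=
  Submodule.Quotient.mk (p := Block.locIdeal M • (⊤ : Submodule (Block.locRing M) (latt M ρ))) v

/-- The action on the reduction. -/
noncomputable def redAct (g : G) :
    redMod M ρ →ₗ[Block.ResField M] redMod M ρ where
  toFun := Submodule.mapQ _ _ (lattRep M ρ g) (Submodule.smul_le.2 fun r hr v _ => by
    rw [Submodule.mem_comap, map_smul]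
    exact Submodule.smul_mem_smul hr Submodule.mem_top)
  map_add' := map_add _
  map_smul' := fun c w => by
    obtain ⟨r, rfl⟩ := Ideal.Quotient.mk_surjective c
    obtain ⟨v, rfl⟩ := Submodule.Quotient.mk_surjective _ w
    show Submodule.mapQ _ _ (lattRep M ρ g) _ (lattMk M ρ (r • v)) =
      lattMk M ρ (r • lattRep M ρ g v)
    rw [Submodule.mapQ_apply, map_smul]

theorem redAct_mk (g : G) (v : latt M ρ) :
    redAct M ρ g (lattMk M ρ v) = lattMk M ρ (lattRep M ρ g v) :=
  rfl

/-- The reduced representation. -/
noncomputable def redRep : Representation (Block.ResField M) G (redMod M ρ) where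
  toFun := redAct M ρ
  map_one' := LinearMap.ext fun w => by
    obtain ⟨v, rfl⟩ := Submodule.Quotient.mk_surjective _ w
    refine (redAct_mk M ρ 1 v).trans (congrArg _ (Subtype.ext ?_))
    rw [coe_lattRep, map_one, Module.End.one_apply]
  map_mul' := fun a b => LinearMap.ext fun w => by
    obtain ⟨v, rfl⟩ := Submodule.Quotient.mk_surjective _ w
    show redAct M ρ (a * b) (lattMk M ρ v) = redAct M ρ a (redAct M ρ b (lattMk M ρ v))
    rw [redAct_mk, redAct_mk, redAct_mk]
    refine congrArg _ (Subtype.ext ?_)
    rw [coe_lattRep, coe_lattRep, coe_lattRep, map_mul, Module.End.mul_apply]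

theorem redRep_mk (g : G) (v : latt M ρ) :
    redRep M ρ g (lattMk M ρ v) = lattMk M ρ (lattRep M ρ g v) := redAct_mk M ρ g v

instance latt_finite : Module.Finite (Block.locRing M) (latt M ρ) :=
  Module.Finite.span_of_finite _ (Set.finite_range _)

/-- An element of order prime to `p` acting trivially on the reduction acts trivially. -/
theorem eq_one_of_redRep (hM : IsPModular p M) {y : G} (hy : ¬ p ∣ orderOf y)
    (h : redRep M ρ y = 1) : ρ y = 1 := by
  classical
  haveI : Fact p.Prime := ⟨hM.1⟩
  haveI := Block.resField_charP (M := M) hM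
  set I := Block.locIdeal M
  set T := lattRep M ρ y with hT
  set A := T - 1 with hA
  set n := orderOf y
  have hTn : T ^ n = 1 := by
    refine LinearMap.ext fun v => Subtype.ext ?_
    have hpow : ∀ i : ℕ, (((T ^ i) v : latt M ρ) : Fin d → ℂ) = ρ (y ^ i) (v : Fin d → ℂ) := by
      intro i
      induction i with
      | zero => simp
      | succ i ih =>
        rw [pow_succ', Module.End.mul_apply, hT, coe_lattRep, ih, ← Module.End.mul_apply, ← map_mul,
          ← pow_succ']
    rw [hpow, pow_orderOf_eq_one, map_one]
    rfl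
  have hAI : ∀ v, A v ∈ I • (⊤ : Submodule (Block.locRing M) (latt M ρ)) := by
    intro v
    rw [← Submodule.Quotient.mk_eq_zero]
    show lattMk M ρ (T v - v) = 0
    rw [lattMk, Submodule.Quotient.mk_sub, sub_eq_zero]
    have h' := LinearMap.congr_fun h (lattMk M ρ v)
    rw [redRep_mk] at h'
    exact h'
  obtain ⟨B, hB⟩ : ∃ B : Module.End (Block.locRing M) (latt M ρ),
      A * ((n : Module.End (Block.locRing M) (latt M ρ)) + A * B) = 0 ∧ Commute A B := by
    have key : ∀ i : ℕ, ∃ B, Commute A B ∧ T ^ i =
        1 + (i : Module.End (Block.locRing M) (latt M ρ)) * A + A * A * B := by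
      intro i
      induction i with
      | zero => exact ⟨0, Commute.zero_right _, by simp⟩
      | succ i ih =>
        obtain ⟨B, hcB, hB⟩ := ih
        refine ⟨B + B * A + (i : Module.End (Block.locRing M) (latt M ρ)),
          ((hcB.add_right (hcB.mul_right (Commute.refl A))).add_right (Nat.commute_cast A i)), ?_⟩
        have hT1 : T = 1 + A := by rw [hA]; abel
        rw [pow_succ, hB, hT1, Nat.cast_succ]
        have hc := (Nat.cast_commute i A).eq
        simp only [mul_add, add_mul, one_mul, mul_one, mul_assoc, hc]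
        abel
    obtain ⟨B, hcB, hB⟩ := key n
    refine ⟨B, ?_, hcB⟩
    rw [hTn] at hB
    have h0 : (n : Module.End (Block.locRing M) (latt M ρ)) * A + A * A * B = 0 := by
      have h1 := sub_eq_zero.2 hB.symm
      rw [add_assoc] at h1
      exact Eq.trans (by abel) h1
    rw [mul_add, ← (Nat.cast_commute n A).eq, ← mul_assoc]
    exact h0
  set E := (n : Module.End (Block.locRing M) (latt M ρ)) + A * B
  have hsurj : LinearMap.range E = ⊤ := by
    have hu : IsUnit ((n : ℕ) : Block.locRing M) := Block.isUnit_of_notMem_locIdeal fun hmem => hy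
      ((Block.natCast_memLocalIdeal_iff hM).1 (by simpa using hmem))
    refine top_le_iff.1 (Submodule.le_of_le_smul_of_le_jacobson_bot Module.Finite.fg_top
      ((IsLocalRing.eq_maximalIdeal (Block.locIdeal_isMaximal (M := M))).le.trans
        (IsLocalRing.maximalIdeal_le_jacobson ⊥)) fun v _ => ?_)
    obtain ⟨u, hu⟩ := hu
    refine Submodule.mem_sup.2 ⟨E ((↑u⁻¹ : Block.locRing M) • v), ⟨_, rfl⟩,
      -(A (B ((↑u⁻¹ : Block.locRing M) • v))), neg_mem (hAI _), ?_⟩
    show ((n : Module.End (Block.locRing M) (latt M ρ)) + A * B) _ + _ = v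
    rw [LinearMap.add_apply, Module.End.mul_apply, add_neg_cancel_right, Module.End.natCast_apply,
      ← Nat.cast_smul_eq_nsmul (Block.locRing M), smul_smul, ← hu, Units.mul_inv, one_smul]
  have hA0 : ∀ v, A v = 0 := by
    intro v
    obtain ⟨w, rfl⟩ := (hsurj ▸ Submodule.mem_top : v ∈ LinearMap.range E)
    rw [← Module.End.mul_apply, hB.1, LinearMap.zero_apply]
  refine LinearMap.pi_ext' fun i => LinearMap.ext_ring ?_
  show ρ y (Pi.single i (1 : ℂ)) = Pi.single i 1
  have hmem : (Pi.single i (1 : ℂ) : Fin d → ℂ) ∈ latt M ρ := by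
    have := Submodule.subset_span (R := Block.locRing M)
      (Set.mem_range_self (f := fun q : G × Fin d => ρ q.1 (Pi.single q.2 1)) ((1 : G), i))
    simpa [latt] using this
  have := congrArg Subtype.val (hA0 ⟨_, hmem⟩)
  rw [hA, LinearMap.sub_apply, Module.End.one_apply, AddSubgroupClass.coe_sub, hT, coe_lattRep,
    ZeroMemClass.coe_zero, sub_eq_zero] at this
  exact this

/-- An element of order `p` acts on the reduction with nilpotency index at most the degree. -/
theorem redRep_sub_one_pow (hM : IsPModular p M) {x : G} (hx : x ^ p = 1) :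
    (redRep M ρ x - 1) ^ d = 0 := by
  classical
  obtain ⟨b, μ, hbμ⟩ := Char.exists_eigenbasis_of_pow_eq_one (ρ x) hM.1.ne_zero
    (by rw [← map_pow, hx, map_one])
  have hμ : ∀ i, μ i ^ p = 1 := fun i => (hbμ i).2
  have hc : ∀ i, ρ x (b i) = μ i • b i := fun i => (hbμ i).1
  have hμmem : ∀ i, μ i ∈ Block.locRing M := fun i =>
    Block.integral_mem_locRing (IsIntegral.of_pow hM.1.pos (by rw [hμ i]; exact isIntegral_one))
  let q : Polynomial (Block.locRing M) :=
    ∏ i, (Polynomial.X - Polynomial.C ⟨μ i, hμmem i⟩)
  have hq : q.map (Block.red M) = (Polynomial.X - 1) ^ d := by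
    rw [Polynomial.map_prod, Finset.prod_congr rfl fun i _ => by
      rw [Polynomial.map_sub, Polynomial.map_X, Polynomial.map_C,
        Block.red_rootOfUnity_eq_one hM (k := 1) (by rw [pow_one]; exact hμ i), map_one],
      Finset.prod_const, Finset.card_univ, Fintype.card_fin, Module.finrank_fin_fun]
  have hA : ∀ v : latt M ρ, ((Polynomial.aeval (lattRep M ρ x) q v : latt M ρ) : Fin d → ℂ) =
      Polynomial.aeval (ρ x) (q.map (Block.locRing M).subtype) (v : Fin d → ℂ) := by
    refine Polynomial.induction_on' (motive := fun q => ∀ v : latt M ρ,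
      ((Polynomial.aeval (lattRep M ρ x) q v : latt M ρ) : Fin d → ℂ) =
      Polynomial.aeval (ρ x) (q.map (Block.locRing M).subtype) (v : Fin d → ℂ)) q
      (fun f g hf hg v => by
        simp only [Polynomial.map_add, map_add, LinearMap.add_apply, Submodule.coe_add, hf, hg])
      fun n a v => ?_
    have hp : ∀ v : latt M ρ, (((lattRep M ρ x ^ n) v : latt M ρ) : Fin d → ℂ) =
        (ρ x ^ n) (v : Fin d → ℂ) := by
      induction n with
      | zero => simp
      | succ n ih =>
        intro v
        rw [pow_succ', pow_succ', Module.End.mul_apply, Module.End.mul_apply, coe_lattRep, ih]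
    simp only [Polynomial.map_monomial, Polynomial.aeval_monomial, Module.End.mul_apply,
      Module.algebraMap_end_apply]
    rw [Submodule.coe_smul, hp]
    rfl
  have hB : ∀ (v : latt M ρ), Polynomial.aeval (redRep M ρ x) (q.map (Block.red M)) (lattMk M ρ v) =
      lattMk M ρ (Polynomial.aeval (lattRep M ρ x) q v) := by
    refine Polynomial.induction_on' (motive := fun q => ∀ v : latt M ρ,
      Polynomial.aeval (redRep M ρ x) (q.map (Block.red M)) (lattMk M ρ v) =
      lattMk M ρ (Polynomial.aeval (lattRep M ρ x) q v)) q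
      (fun f g hf hg v => by
        simp only [Polynomial.map_add, map_add, LinearMap.add_apply, hf, hg, lattMk,
          Submodule.Quotient.mk_add])
      fun n a v => ?_
    have hp : ∀ v : latt M ρ, (redRep M ρ x ^ n) (lattMk M ρ v) =
        lattMk M ρ ((lattRep M ρ x ^ n) v) := by
      induction n with
      | zero => simp
      | succ n ih =>
        intro v
        rw [pow_succ', pow_succ', Module.End.mul_apply, Module.End.mul_apply, ih, redRep_mk]
    simp only [Polynomial.map_monomial, Polynomial.aeval_monomial, Module.End.mul_apply,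
      Module.algebraMap_end_apply, hp]
    rfl
  have hzero : Polynomial.aeval (ρ x) (q.map (Block.locRing M).subtype) = 0 := by
    refine b.ext fun j => ?_
    have hev : Module.End.HasEigenvector (ρ x) (μ j) (b j) :=
      ⟨Module.End.mem_eigenspace_iff.2 (hc j), b.ne_zero j⟩
    rw [Module.End.aeval_apply_of_hasEigenvector hev, LinearMap.zero_apply, Polynomial.map_prod,
      Polynomial.eval_prod, Finset.prod_eq_zero (Finset.mem_univ j), zero_smul]
    simp
  refine LinearMap.ext fun w => ?_
  obtain ⟨v, rfl⟩ := Submodule.Quotient.mk_surjective _ w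
  have e := hB v
  rw [hq, map_pow, map_sub, Polynomial.aeval_X, map_one] at e
  show ((redRep M ρ x - 1) ^ d) (lattMk M ρ v) = 0
  rw [e, show Polynomial.aeval (lattRep M ρ x) q v = 0 from Subtype.ext (by rw [hA, hzero]; rfl)]
  rfl

end Cfsg.Agent.Lib.DefectOne
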