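import Mathlib.RepresentationTheory.Basic
import Mathlib.GroupTheory.Sylow
import Mathlib.Algebra.CharP.Lemmas
import Mathlib.Algebra.CharP.Algebra
import Mathlib.Algebra.Algebra.ZMod
import Mathlib.Algebra.Field.ZMod
import Mathlib.Algebra.Polynomial.AlgebraMap
import Mathlib.Algebra.Polynomial.Degree.Domain
import Mathlib.RingTheory.Nilpotent.Basic
import Mathlib.LinearAlgebra.Projection

/-!
# Modules on which a generator of a Sylow group of order `p` has small nilpotency index

For such a module the centraliser of a `p'`-subgroup normalised by the normaliser of the Sylow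
group and centralising it is stable under the whole group.
-/

set_option autoImplicit false
set_option linter.unusedSectionVars false
set_option linter.style.haveILetI false

namespace Cfsg.Agent.Lib.DefectOne

universe u v

variable {p : ℕ} [Fact p.Prime] {G : Type u} [Group G] [Finite G] {k : Type v} [Field k]
  {W : Type v} [AddCommGroup W] [Module k W]

/-- Conjugation on the endomorphisms of a representation. -/
noncomputable def endConj (ρ : Representation k G W) (g : G) :
    Module.End k (Module.End k W) :=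
  (LinearMap.mulLeft k (ρ g)).comp (LinearMap.mulRight k (ρ g⁻¹))

theorem endConj_apply (ρ : Representation k G W) (g : G) (a : Module.End k W) :
    endConj ρ g a = ρ g * a * ρ g⁻¹ := by
  simp [endConj, mul_assoc]

theorem endConj_one (ρ : Representation k G W) : endConj ρ 1 = 1 := by
  refine LinearMap.ext fun a => ?_
  rw [endConj_apply]
  simp

theorem endConj_mul (ρ : Representation k G W) (g h : G) :
    endConj ρ (g * h) = endConj ρ g * endConj ρ h := by
  refine LinearMap.ext fun a => ?_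
  rw [Module.End.mul_apply, endConj_apply, endConj_apply, endConj_apply, mul_inv_rev, map_mul,
    map_mul]
  simp only [mul_assoc]

theorem endConj_sub_one_pow (ρ : Representation k G W) {x : G} {d n : ℕ}
    (hd : (ρ x - 1) ^ d = 0) (hn : 2 * d ≤ n + 1) : (endConj ρ x - 1) ^ n = 0 := by
  have e : endConj ρ x - 1 =
      (LinearMap.mulLeft k (ρ x - 1) - LinearMap.mulRight k (ρ x - 1)) *
        LinearMap.mulRight k (ρ x⁻¹) := by
    refine LinearMap.ext fun a => ?_
    simp only [LinearMap.sub_apply, Module.End.one_apply, Module.End.mul_apply, endConj_apply,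
      LinearMap.mulLeft_apply, LinearMap.mulRight_apply]
    have h1 : ρ x⁻¹ * ρ x = 1 := by rw [← map_mul, inv_mul_cancel, map_one]
    calc ρ x * a * ρ x⁻¹ - a = ρ x * a * ρ x⁻¹ - a * (ρ x⁻¹ * ρ x) := by rw [h1, mul_one]
      _ = _ := by
        simp only [sub_mul, mul_sub, one_mul, mul_one, mul_assoc]
        abel
  have hc1 : Commute (ρ x - 1) (ρ x⁻¹) := by
    refine Commute.sub_left ?_ (Commute.one_left _)
    show ρ x * ρ x⁻¹ = ρ x⁻¹ * ρ x
    rw [← map_mul, ← map_mul, mul_inv_cancel, inv_mul_cancel]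
  have hLR : ∀ a b : Module.End k W, Commute (LinearMap.mulLeft k a) (LinearMap.mulRight k b) :=
    fun a b => LinearMap.commute_mulLeft_right a b
  have hcomm : Commute (LinearMap.mulLeft k (ρ x - 1) - LinearMap.mulRight k (ρ x - 1))
      (LinearMap.mulRight k (ρ x⁻¹)) := by
    refine Commute.sub_left (hLR _ _) ?_
    refine LinearMap.ext fun a => ?_
    simp only [Module.End.mul_apply, LinearMap.mulRight_apply, mul_assoc, hc1.eq]
  rw [e, hcomm.mul_pow]
  have h0 : (LinearMap.mulLeft k (ρ x - 1) - LinearMap.mulRight k (ρ x - 1)) ^ n = 0 := by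
    rw [sub_eq_add_neg, ((hLR _ _).neg_right).add_pow]
    refine Finset.sum_eq_zero fun i _ => ?_
    by_cases hi : d ≤ i
    · rw [LinearMap.pow_mulLeft, pow_eq_zero_of_le hi hd, LinearMap.mulLeft_zero_eq_zero, zero_mul,
        zero_mul]
    · rw [neg_pow, LinearMap.pow_mulRight, pow_eq_zero_of_le (show d ≤ n - i by omega) hd,
        LinearMap.mulRight_zero_eq_zero, mul_zero, mul_zero, zero_mul]
  rw [h0, zero_mul]

variable {P : Sylow p G}

theorem mem_sylow_of_mem_normalizer {y : G}
    (hy : y ∈ Subgroup.normalizer ((P : Subgroup G) : Set G)) (hp : ∃ n : ℕ, orderOf y = p ^ n) :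
    y ∈ (P : Subgroup G) := by
  obtain ⟨n, hn⟩ := hp
  have hz : IsPGroup p (Subgroup.zpowers y) := IsPGroup.of_card (by rw [Nat.card_zpowers, hn])
  have := P.is_maximal' (hz.to_sup_of_normal_right' P.2 (Subgroup.zpowers_le.2 hy)) le_sup_right
  rw [← this]
  exact Subgroup.mem_sup_left (Subgroup.mem_zpowers y)

/-- The centraliser of `V` is stable under the group. -/
theorem centralizer_endConj_stable [CharP k p] (ρ : Representation k G W)
    (hP : Nat.card (P : Subgroup G) = p) {x : G} (hx : x ∈ (P : Subgroup G)) (hx1 : x ≠ 1)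
    (V : Subgroup G) (hV : ¬ p ∣ Nat.card V)
    (hVx : ∀ v ∈ V, Commute x v)
    (hVN : ∀ n ∈ Subgroup.normalizer ((P : Subgroup G) : Set G), ∀ v ∈ V, n * v * n⁻¹ ∈ V)
    {d : ℕ} (hd : (ρ x - 1) ^ d = 0) (hdp : 2 * d ≤ p)
    {a : Module.End k W} (ha : ∀ v ∈ V, endConj ρ v a = a) (g : G) :
    ∀ v ∈ V, endConj ρ v (endConj ρ g a) = endConj ρ g a := by
  classical
  haveI := Fintype.ofFinite G
  haveI : Fintype V := Fintype.ofFinite _
  haveI hp : p.Prime := Fact.out
  set N := Subgroup.normalizer ((P : Subgroup G) : Set G) with hN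
  set c := endConj ρ with hc
  have hcmul : ∀ g h : G, c (g * h) = c g * c h := endConj_mul ρ
  have hcone : c 1 = 1 := endConj_one ρ
  have hVk : (Fintype.card V : k) ≠ 0 := by
    rw [Ne, CharP.cast_eq_zero_iff k p, ← Nat.card_eq_fintype_card]
    exact hV
  -- the projection
  set π : Module.End k (Module.End k W) := (Fintype.card V : k)⁻¹ • ∑ v : V, c v with hπ
  have hVπ : ∀ v ∈ V, c v * π = π := by
    intro v hv
    rw [hπ, mul_smul_comm, Finset.mul_sum]
    congr 1
    exact Fintype.sum_equiv (Equiv.mulLeft (⟨v, hv⟩ : V)) _ _ fun w => (hcmul v w).symm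
  have hπfix : ∀ b, (∀ v ∈ V, c v b = b) → π b = b := by
    intro b hb
    rw [hπ, LinearMap.smul_apply, LinearMap.sum_apply, Finset.sum_congr rfl fun (v : V) _ => hb v v.2,
      Finset.sum_const, Finset.card_univ, ← Nat.cast_smul_eq_nsmul k, smul_smul,
      inv_mul_cancel₀ hVk, one_smul]
  have hππ : π * π = π := LinearMap.ext fun b => hπfix (π b) fun v hv => by
    rw [← Module.End.mul_apply, hVπ v hv]
  have hπN : ∀ n ∈ N, c n * π * c n⁻¹ = π := by
    intro n hn
    rw [hπ, mul_smul_comm, smul_mul_assoc, Finset.mul_sum, Finset.sum_mul]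
    congr 1
    refine Fintype.sum_equiv
      { toFun := fun v : V => (⟨n * (v : G) * n⁻¹, hVN n hn v v.2⟩ : V)
        invFun := fun v : V => (⟨n⁻¹ * (v : G) * n⁻¹⁻¹, hVN n⁻¹ (inv_mem hn) v v.2⟩ : V)
        left_inv := fun v => Subtype.ext (by simp [mul_assoc])
        right_inv := fun v => Subtype.ext (by simp [mul_assoc]) } _ _ fun v => ?_
    rw [← hcmul, ← hcmul]
    rfl
  -- the trace
  have hwell : ∀ a b : G, a⁻¹ * b ∈ N → c a * π * c a⁻¹ = c b * π * c b⁻¹ := by
    intro a b hab
    conv_lhs => rw [← hπN _ hab]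
    simp only [← mul_assoc, ← hcmul, mul_inv_cancel_left]
    rw [mul_assoc, ← hcmul]
    congr 2
    group
  set F : G ⧸ N → Module.End k (Module.End k W) := fun q => c q.out * π * c q.out⁻¹ with hF
  have hFmk : ∀ g : G, F (g : G ⧸ N) = c g * π * c g⁻¹ := fun g =>
    hwell _ _ (QuotientGroup.eq.1 (QuotientGroup.out_eq' (g : G ⧸ N)))
  have hFsmul : ∀ (g : G) (q : G ⧸ N), F (g • q) = c g * F q * c g⁻¹ := by
    intro g q
    obtain ⟨h, rfl⟩ := QuotientGroup.mk_surjective q
    rw [show g • (h : G ⧸ N) = ((g * h : G) : G ⧸ N) from rfl, hFmk, hFmk, mul_inv_rev, hcmul,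
      hcmul]
    simp only [mul_assoc]
  set Φ := ∑ q : G ⧸ N, F q with hΦ
  have hΦG : ∀ g, c g * Φ = Φ * c g := by
    intro g
    have h : c g * Φ * c g⁻¹ = Φ := by
      rw [hΦ, Finset.mul_sum, Finset.sum_mul]
      exact Fintype.sum_equiv (MulAction.toPerm g) _ _ fun q => (hFsmul g q).symm
    conv_rhs => rw [← h]
    rw [mul_assoc, ← hcmul, inv_mul_cancel, hcone, mul_one]
  set R := Φ - π with hR
  set D := c x - 1 with hD
  -- the trace is congruent to the projection
  have hD0 : D ^ (p - 1) = 0 := endConj_sub_one_pow ρ hd (by omega)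
  have hcpow : ∀ (g : G) (i : ℕ), c (g ^ i) = c g ^ i := by
    intro g i
    induction i with
    | zero => rw [pow_zero, pow_zero, hcone]
    | succ i ih => rw [pow_succ, pow_succ, hcmul, ih]
  have hxo : orderOf x = p := orderOf_eq_prime (by
    have h := congrArg Subtype.val (pow_card_eq_one' (G := (P : Subgroup G)) (x := ⟨x, hx⟩))
    rwa [hP] at h) hx1
  have hgeom : ∑ i ∈ Finset.range p, c x⁻¹ ^ i = 0 := by
    have hu : 1 - c x⁻¹ = c x⁻¹ * D := by
      rw [hD, mul_sub, mul_one, ← hcmul, inv_mul_cancel, hcone]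
    have hu0 : (1 - c x⁻¹) ^ (p - 1) = 0 := by
      have hc : Commute (c x⁻¹) D := by
        refine Commute.sub_right ?_ (Commute.one_right _)
        show c x⁻¹ * c x = c x * c x⁻¹
        rw [← hcmul, ← hcmul, inv_mul_cancel, mul_inv_cancel]
      rw [hu, hc.mul_pow, hD0, mul_zero]
    have key : (1 - Polynomial.X : Polynomial k) ^ (p - 1) =
        ∑ i ∈ Finset.range p, Polynomial.X ^ i := by
      have h0 : (1 - Polynomial.X : Polynomial k) ≠ 0 := fun h => by
        simpa using congrArg (Polynomial.eval 0) h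
      refine mul_left_cancel₀ h0 ?_
      rw [← pow_succ', Nat.sub_add_cancel hp.one_le, sub_pow_char, one_pow, mul_neg_geom_sum]
    have := congrArg (Polynomial.aeval (c x⁻¹)) key
    rw [map_pow, map_sub, Polynomial.aeval_X, map_one, hu0, map_sum] at this
    simpa using this.symm
  have hfree : ∀ (q : G ⧸ N), q ≠ ((1 : G) : G ⧸ N) → ∀ i : ℕ, i < p → x ^ i • q = q → i = 0 := by
    intro q hq i hi hfix
    by_contra hi0
    obtain ⟨h, rfl⟩ := QuotientGroup.mk_surjective q
    refine hq (QuotientGroup.eq.2 ?_)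
    rw [mul_one]
    refine inv_mem ?_
    have hmem : h⁻¹ * x ^ i * h ∈ N := by
      have h' := QuotientGroup.eq.1 (show ((x ^ i * h : G) : G ⧸ N) = h from hfix)
      have := inv_mem h'
      simpa [mul_assoc] using this
    have ho : orderOf (x ^ i) = p := by
      rw [Nat.Coprime.orderOf_pow (by
        rw [hxo]; exact (hp.coprime_iff_not_dvd.2 (Nat.not_dvd_of_pos_of_lt (by omega) hi))), hxo]
    have hP' : h⁻¹ * x ^ i * h ∈ (P : Subgroup G) := mem_sylow_of_mem_normalizer hmem ⟨1, by
      rw [pow_one, show orderOf (h⁻¹ * x ^ i * h) = orderOf (x ^ i) by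
        simpa using (MulAut.conj h⁻¹).orderOf_eq (x ^ i)]
      exact ho⟩
    have hz : Subgroup.zpowers (x ^ i) = (P : Subgroup G) :=
      Subgroup.eq_of_le_of_card_ge (Subgroup.zpowers_le.2 (pow_mem hx i))
        (by rw [hP, Nat.card_zpowers, ho])
    refine inv_mem_iff.1 ?_
    rw [hN, Subgroup.mem_normalizer_iff_map_conj_eq]
    refine Subgroup.eq_of_le_of_card_ge ?_ (by
      rw [Subgroup.card_map_of_injective (MulEquiv.injective _)])
    conv_lhs => rw [← hz]
    rw [MonoidHom.map_zpowers, Subgroup.zpowers_le]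
    show h⁻¹ * x ^ i * h⁻¹⁻¹ ∈ (P : Subgroup G)
    rwa [inv_inv]
  have hRD : ∀ b, ∃ b', D b' = R b := by
    let Q := LinearMap.range D
    suffices hz : ∀ b, R b ∈ Q from fun b => hz b
    intro b
    rw [← Submodule.Quotient.mk_eq_zero Q]
    let q0 : G ⧸ N := ((1 : G) : G ⧸ N)
    have hq0 : F q0 = π := by rw [hFmk, inv_one, hcone, one_mul, mul_one]
    rw [hR, hΦ, ← Finset.add_sum_erase _ _ (Finset.mem_univ q0), hq0, add_sub_cancel_left,
      LinearMap.sum_apply, ← Submodule.mkQ_apply, map_sum]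
    have hqD : ∀ b, Q.mkQ (c x b) = Q.mkQ b := fun b => by
      refine (Submodule.Quotient.eq Q).2 ⟨b, ?_⟩
      rw [hD, LinearMap.sub_apply, Module.End.one_apply]
    have hqxi : ∀ (i : ℕ) (b), Q.mkQ (c (x ^ i) b) = Q.mkQ b := by
      intro i
      induction i with
      | zero => intro b; rw [pow_zero, hcone, Module.End.one_apply]
      | succ i ih => intro b; rw [pow_succ, hcmul, Module.End.mul_apply, ih, hqD]
    let r := MulAction.orbitRel (Subgroup.zpowers x) (G ⧸ N)
    rw [← Finset.sum_fiberwise (Finset.univ.erase q0) (Quotient.mk r)]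
    refine Finset.sum_eq_zero fun o _ => ?_
    rcases Finset.eq_empty_or_nonempty
      ((Finset.univ.erase q0).filter fun q => Quotient.mk r q = o) with he | ⟨s, hs⟩
    · rw [he, Finset.sum_empty]
    obtain ⟨hs0, hso⟩ := Finset.mem_filter.1 hs
    have hs1 : s ≠ q0 := (Finset.mem_erase.1 hs0).1
    have hxq0 : ∀ i : ℕ, x ^ i • q0 = q0 := fun i =>
      QuotientGroup.eq.2 (by
        have := N.inv_mem (N.pow_mem (Subgroup.le_normalizer hx) i)
        simpa using this)
    have hmem : ∀ q ∈ (Finset.univ.erase q0).filter (fun q => Quotient.mk r q = o),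
        ∃ i, i < p ∧ x ^ i • s = q := by
      intro q hq
      obtain ⟨⟨z, hz⟩, hz'⟩ := MulAction.orbitRel_apply.1
        (Quotient.exact ((Finset.mem_filter.1 hq).2.trans hso.symm))
      rw [mem_zpowers_iff_mem_range_orderOf] at hz
      obtain ⟨i, hi, rfl⟩ := Finset.mem_image.1 hz
      exact ⟨i, hxo ▸ Finset.mem_range.1 hi, hz'⟩
    rw [Finset.sum_bij (t := Finset.range p) (g := fun i => Q.mkQ (F (x ^ i • s) b))
      (fun q hq => Nat.find (hmem q hq)) ?_ ?_ ?_ ?_]
    · simp only [hFsmul, Module.End.mul_apply, hqxi, ← map_sum]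
      have : ∑ i ∈ Finset.range p, c (x ^ i)⁻¹ b = (∑ i ∈ Finset.range p, c x⁻¹ ^ i) b := by
        rw [LinearMap.sum_apply]
        refine Finset.sum_congr rfl fun i _ => ?_
        rw [← inv_pow, hcpow]
      rw [this, hgeom, LinearMap.zero_apply, map_zero, map_zero]
    · intro q hq
      exact Finset.mem_range.2 (Nat.find_spec (hmem q hq)).1
    · intro q₁ h₁ q₂ h₂ h
      rw [← (Nat.find_spec (hmem q₁ h₁)).2, h, (Nat.find_spec (hmem q₂ h₂)).2]
    · intro i hi
      refine ⟨x ^ i • s, Finset.mem_filter.2 ⟨Finset.mem_erase.2 ⟨fun h => hs1 ?_, Finset.mem_univ _⟩,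
        ?_⟩, ?_⟩
      · rw [← inv_smul_smul (x ^ i) s, h]
        exact inv_smul_eq_iff.2 (hxq0 i).symm
      · rw [← hso]
        exact Quotient.sound ⟨⟨x ^ i, Subgroup.npow_mem_zpowers x i⟩, rfl⟩
      · have hex : ∃ j, j < p ∧ x ^ j • s = x ^ i • s := ⟨i, Finset.mem_range.1 hi, rfl⟩
        have hj := Nat.find_spec hex
        have hle := Nat.find_min' hex ⟨Finset.mem_range.1 hi, rfl⟩
        have := hfree s hs1 (i - Nat.find hex) (by have := Finset.mem_range.1 hi; omega) (by
          have h2 : x ^ i • s = x ^ (i - Nat.find hex) • (x ^ Nat.find hex • s) := by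
            rw [smul_smul, ← pow_add, Nat.sub_add_cancel hle]
          rw [hj.2] at h2
          have h3 : x ^ (i - Nat.find hex) • (x ^ i • s) = x ^ i • (x ^ (i - Nat.find hex) • s) := by
            rw [smul_smul, smul_smul, ← pow_add, ← pow_add, add_comm]
          exact MulAction.injective (x ^ i) (h3.symm.trans h2.symm))
        omega
    · intro q hq
      rw [(Nat.find_spec (hmem q hq)).2]
  -- the nilpotent part
  have hRπ : ∀ b, π (R b) = R (π b) := by
    intro b
    have h : π * Φ = Φ * π := by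
      rw [hπ, smul_mul_assoc, mul_smul_comm, Finset.sum_mul, Finset.mul_sum]
      exact congrArg _ (Finset.sum_congr rfl fun v _ => hΦG v)
    rw [← Module.End.mul_apply, ← Module.End.mul_apply, hR, mul_sub, sub_mul, h]
  have hRx : R * c x = c x * R := by
    have h2 := hπN x (Subgroup.le_normalizer hx)
    have h3 : π * c x = c x * π := by
      conv_lhs => rw [← h2]
      rw [mul_assoc, ← hcmul, inv_mul_cancel, hcone, mul_one]
    rw [hR, sub_mul, mul_sub, hΦG, h3]
  have hRn : ∀ (i : ℕ) (b), ∃ b', (D ^ i) b' = (R ^ i) b := by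
    intro i
    induction i with
    | zero => exact fun b => ⟨b, rfl⟩
    | succ i ih =>
      intro b
      obtain ⟨b₁, hb₁⟩ := ih b
      obtain ⟨b₂, hb₂⟩ := hRD b₁
      refine ⟨b₂, ?_⟩
      rw [pow_succ, pow_succ', Module.End.mul_apply, Module.End.mul_apply, hb₂, ← hb₁]
      have hcD : Commute (D ^ i) R := by
        refine Commute.pow_left ?_ i
        exact Commute.sub_left hRx.symm (Commute.one_left _)
      exact LinearMap.congr_fun hcD.eq b₁
  have hR0 : R ^ (p - 1) = 0 := LinearMap.ext fun b => by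
    obtain ⟨b', hb'⟩ := hRn (p - 1) b
    rw [← hb', hD0, LinearMap.zero_apply, LinearMap.zero_apply]
  have hcomm : Commute π R := LinearMap.ext hRπ
  -- conclusion
  have hΦn : ∀ (n : ℕ), 1 ≤ n → Φ ^ n = π * (1 + R) ^ n + (1 - π) * R ^ n := by
    intro n hn
    induction n, hn using Nat.le_induction with
    | base =>
      rw [pow_one, pow_one, pow_one, hR]
      simp only [mul_add, mul_one, sub_mul, one_mul, mul_sub, hππ]
      abel
    | succ n _ ih =>
      have e1 : Φ = π + R := by rw [hR]; abel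
      rw [pow_succ, ih, e1, pow_succ, pow_succ]
      have c1 : Commute π ((1 + R) ^ n) := ((Commute.one_right π).add_right hcomm).pow_right n
      have c2 : Commute π (R ^ n) := hcomm.pow_right n
      simp only [add_mul, mul_add, sub_mul, one_mul, mul_assoc, mul_one]
      rw [← c1.eq, ← c2.eq, ← mul_assoc π π, hππ, ← mul_assoc π π (R ^ n), hππ]
      abel
  have hpn : 1 ≤ p - 1 := by have := hp.two_le; omega
  have hΦp : Φ ^ (p - 1) = π * (1 + R) ^ (p - 1) := by
    rw [hΦn _ hpn, hR0, mul_zero, add_zero]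
  obtain ⟨U, hU⟩ : ∃ U, (1 + R) ^ (p - 1) * U = 1 := by
    obtain ⟨u, hu⟩ := ((IsNilpotent.isUnit_one_add ⟨_, hR0⟩).pow (p - 1))
    exact ⟨↑u⁻¹, by rw [← hu, Units.mul_inv]⟩
  intro v hv
  have ha' : a = (Φ ^ (p - 1)) (U a) := by
    rw [hΦp, Module.End.mul_apply, ← Module.End.mul_apply ((1 + R) ^ (p - 1)), hU,
      Module.End.one_apply, hπfix a ha]
  rw [ha', ← Module.End.mul_apply (c g), (Commute.pow_right (hΦG g) (p - 1)).eq,
    Module.End.mul_apply, hΦp, Module.End.mul_apply π, ← Module.End.mul_apply (c v), hVπ v hv]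

/-- A `p`-element acting nontrivially does not commute with the centraliser of a `p'`-subgroup. -/
theorem exists_centralizer_not_commute [CharP k p] (ρ : Representation k G W) {x : G}
    (hx1 : ρ x ≠ 1) (V : Subgroup G) (hV : ¬ p ∣ Nat.card V) (hVx : ∀ v ∈ V, Commute x v)
    {d : ℕ} (hd : (ρ x - 1) ^ d = 0) :
    ∃ a : Module.End k W, (∀ v ∈ V, endConj ρ v a = a) ∧ endConj ρ x a ≠ a := by
  classical
  haveI : Fintype V := Fintype.ofFinite _
  have hVk : (Fintype.card V : k) ≠ 0 := by
    rw [Ne, CharP.cast_eq_zero_iff k p, ← Nat.card_eq_fintype_card]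
    exact hV
  set u := ρ x - 1 with hu
  set W₁ := LinearMap.range u
  obtain ⟨C₁, hC₁⟩ := W₁.exists_isCompl
  let e₀ : Module.End k W := W₁.projection C₁ hC₁
  let e : Module.End k W := (Fintype.card V : k)⁻¹ • ∑ v : V, endConj ρ v e₀
  have hVu : ∀ v ∈ V, Commute (ρ v) u := fun v hv =>
    Commute.sub_right ((hVx v hv).symm.map ρ) (Commute.one_right _)
  have he₁ : ∀ w ∈ W₁, e w = w := by
    rintro _ ⟨w, rfl⟩
    simp only [e, LinearMap.smul_apply, LinearMap.sum_apply, endConj_apply, Module.End.mul_apply]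
    rw [Finset.sum_congr rfl (g := fun _ => u w) fun v _ => ?_, Finset.sum_const, Finset.card_univ,
      ← Nat.cast_smul_eq_nsmul k, smul_smul, inv_mul_cancel₀ hVk, one_smul]
    have h1 : ρ ((v : G)⁻¹) (u w) = u (ρ ((v : G)⁻¹) w) :=
      LinearMap.congr_fun (hVu _ (inv_mem v.2)).eq w
    rw [h1, show e₀ (u (ρ ((v : G)⁻¹) w)) = u (ρ ((v : G)⁻¹) w) from
      Submodule.projection_apply_of_mem_left hC₁ ⟨_, rfl⟩, ← h1, ← Module.End.mul_apply, ← map_mul,
      mul_inv_cancel, map_one, Module.End.one_apply]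
  have he₂ : ∀ w, e w ∈ W₁ := by
    intro w
    simp only [e, LinearMap.smul_apply, LinearMap.sum_apply, endConj_apply, Module.End.mul_apply]
    refine Submodule.smul_mem _ _ (Submodule.sum_mem _ fun v _ => ?_)
    obtain ⟨w', hw'⟩ := Submodule.projection_apply_mem hC₁ (ρ ((v : G)⁻¹) w)
    refine ⟨ρ (v : G) w', ?_⟩
    show u (ρ (v : G) w') = ρ (v : G) (W₁.projection C₁ hC₁ (ρ ((v : G)⁻¹) w))
    rw [← hw']
    exact (LinearMap.congr_fun (hVu v v.2).eq w').symm
  refine ⟨e, fun v hv => ?_, fun hcomm => hx1 ?_⟩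
  · simp only [e, map_smul, map_sum, ← Module.End.mul_apply (endConj ρ v), ← endConj_mul]
    congr 1
    exact Fintype.sum_equiv (Equiv.mulLeft (⟨v, hv⟩ : V)) _ _ fun w => rfl
  · have hc : Commute (ρ x) e := by
      have h := congrArg (· * ρ x) hcomm
      simp only [endConj_apply, mul_assoc] at h
      rw [← map_mul, inv_mul_cancel, map_one, mul_one] at h
      exact h
    have huc : Commute u e := Commute.sub_left hc (Commute.one_left _)
    have h1 : ∀ w, u w = u (e w) := fun w => by
      rw [show u (e w) = e (u w) from LinearMap.congr_fun huc.eq w, he₁ _ ⟨w, rfl⟩]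
    have h2 : ∀ i : ℕ, ∀ w, ∃ w', (u ^ (i + 1)) w' = u w := by
      intro i
      induction i with
      | zero => exact fun w => ⟨w, by rw [zero_add, pow_one]⟩
      | succ i ih =>
        intro w
        obtain ⟨w₁, hw₁⟩ := he₂ w
        obtain ⟨w₂, hw₂⟩ := ih w₁
        refine ⟨w₂, ?_⟩
        rw [pow_succ', Module.End.mul_apply, hw₂, hw₁, ← h1]
    refine sub_eq_zero.1 (LinearMap.ext fun w => ?_)
    obtain ⟨w', hw'⟩ := h2 d w
    show u w = 0
    rw [← hw', pow_succ, hd, zero_mul, LinearMap.zero_apply]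

end Cfsg.Agent.Lib.DefectOne
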