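import Cfsg.Agent.Lib.DefectOne.GaloisConj
import Cfsg.Agent.Lib.DefectOne.SmallModule
import Cfsg.Agent.Lib.DefectOne.LatticeReduction
import Cfsg.Agent.Lib.Block.FirstMain
import Cfsg.Agent.Lib.Char.Scalar
import Cfsg.Agent.Lib.Char.Abelian
import Mathlib.GroupTheory.SchurZassenhaus

/-!
# Faithful characters of small degree when `p` divides the order exactly once
-/

set_option autoImplicit false
set_option linter.unusedSectionVars false
set_option linter.style.haveILetI false

namespace Cfsg.Agent.Lib.DefectOne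

open Cfsg Cfsg.Agent.Lib Cfsg.Agent.Lib.Char Cfsg.Agent.Lib.Char.UC
open scoped ComplexConjugate commutatorElement

universe u

variable {p : ℕ} [Fact p.Prime] {G : Type u} [Group G] [Fintype G] {P : Sylow p G}
  {M : Ideal AlgInt} [M.IsPrime]

/-- The hypotheses of a minimal counterexample. -/
structure Minimal (P : Sylow p G) : Prop where
  card_P : Nat.card (P : Subgroup G) = p
  gen : ∀ K : Subgroup G, K.Normal → (P : Subgroup G) ≤ K → K = ⊤
  proper : ∀ H : Subgroup G, (P : Subgroup G) ≤ H → H ≠ ⊤ → H ≤ N P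
  not_normal : N P ≠ ⊤

theorem exists_trivial_inducing (hM : IsPModular p M) (hP : Nat.card (P : Subgroup G) = p)
    {B : Set (IrrCharacter G)} (hB : IsPBlock M B) (hd : blockDefect p B = 1) :
    ∃ θ : Th P, IsInducedBlock M (C P) (blockOf M (θ.1 : C P → ℂ)) B := by
  obtain ⟨D, hD⟩ := Block.exists_isDefectGroup hM hB
  have hDc : Nat.card D = p ^ (Nat.card G).factorization p := by
    rw [(Block.IsDefectGroup.props hM hB hD).2.1, hd, factorization_card hP]
  obtain ⟨g, hg⟩ := MulAction.exists_smul_eq G (Sylow.ofCard D hDc) P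
  have hDP : IsDefectGroup p M B (P : Subgroup G) := by
    have h := Block.IsDefectGroup.map_conj hM hB hD g
    rw [← hg]
    exact h
  obtain ⟨b, hb⟩ := Block.exists_inducing_block hM P.2 (le_C (star_of_card hP)) le_rfl (C_le_N P)
    hB hDP le_rfl
  obtain ⟨φ, hφ⟩ := Block.isPBlock_nonempty hb.1
  obtain ⟨⟨ξ, θ⟩, hξθ⟩ := (phi_bijective hP).2 φ
  refine ⟨θ, ?_⟩
  have hmem : φ ∈ blockOf M (θ.1 : C P → ℂ) := by
    rw [← hξθ]
    exact (phi_mem_block_iff hM hP ξ θ θ).2 rfl
  rwa [Block.eq_of_mem_of_mem (Block.isPBlock_blockOf θ.1) hb.1 hmem hφ]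

/-- A rational value at an element of order `p` in degree less than `p - 1` is the degree. -/
theorem apply_eq_degree_of_const {x : G} (hx : orderOf x = p) {χ : G → ℂ} (hχ : IsCharacter G χ)
    (hc : ∀ y ∈ Subgroup.zpowers x, y ≠ 1 → χ y = χ x) (hd : charDegree χ + 1 < p) :
    χ x = χ 1 := by
  classical
  haveI := Fintype.ofFinite (Subgroup.zpowers x)
  have hp : p.Prime := Fact.out
  have hres := isCharacter_restrict hχ (Subgroup.zpowers x)
  obtain ⟨n, hn⟩ := classInner_natCast hres (isCharacter_one (G := Subgroup.zpowers x))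
  have hcard : Nat.card (Subgroup.zpowers x) = p := by rw [Nat.card_zpowers, hx]
  have hsum : ∑ y : Subgroup.zpowers x, χ y = (charDegree χ : ℂ) + ((p : ℂ) - 1) * χ x := by
    rw [← Finset.add_sum_erase _ _ (Finset.mem_univ (1 : Subgroup.zpowers x)),
      Finset.sum_congr rfl (g := fun _ => χ x) fun (y : Subgroup.zpowers x) hy =>
        hc y y.2 fun h => Finset.ne_of_mem_erase hy (Subtype.ext h),
      Finset.sum_const, Finset.card_erase_of_mem (Finset.mem_univ _), Finset.card_univ,
      ← Nat.card_eq_fintype_card, hcard, nsmul_eq_mul, Nat.cast_sub hp.one_le, Nat.cast_one,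
      OneMemClass.coe_one, apply_one_eq_charDegree hχ]
  have hkey : (charDegree χ : ℂ) + ((p : ℂ) - 1) * χ x = (p : ℂ) * n := by
    rw [← hn, classInner, hcard, ← hsum, ← mul_assoc,
      mul_inv_cancel₀ (Nat.cast_ne_zero.2 hp.ne_zero), one_mul]
    simp
  have hp1 : ((p : ℂ) - 1) ≠ 0 := sub_ne_zero.2 (by exact_mod_cast hp.one_lt.ne')
  set q : ℚ := ((p : ℚ) * n - charDegree χ) / ((p : ℚ) - 1) with hq
  have hval : χ x = (q : ℂ) := by
    rw [hq]
    push_cast
    rw [eq_div_iff hp1]
    linear_combination hkey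
  have hint : IsIntegral ℤ q := by
    have h := char_isIntegral hχ x
    rw [hval, show ((q : ℚ) : ℂ) = algebraMap ℚ ℂ q from rfl] at h
    exact (isIntegral_algebraMap_iff (algebraMap ℚ ℂ).injective).1 h
  obtain ⟨z, hz⟩ := IsIntegrallyClosed.isIntegral_iff.1 hint
  have hzq : χ x = (z : ℂ) := by
    rw [hval, ← hz]
    simp
  have hz' : (charDegree χ : ℤ) + ((p : ℤ) - 1) * z = (p : ℤ) * n := by
    rw [hzq] at hkey
    exact_mod_cast hkey
  have hbd : |z| ≤ (charDegree χ : ℤ) := by
    have h := norm_apply_le hχ x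
    rw [hzq, apply_one_eq_charDegree hχ, Complex.norm_intCast, Complex.norm_natCast] at h
    exact_mod_cast h
  rw [hzq, apply_one_eq_charDegree hχ]
  obtain ⟨h1, h2⟩ := abs_le.1 hbd
  have hdvd : ((p : ℤ) - 1) ∣ ((charDegree χ : ℤ) - n) := ⟨(n : ℤ) - z, by linear_combination hz'⟩
  have hnd : (n : ℤ) ≤ charDegree χ := by
    have hp2 : (2 : ℤ) ≤ p := by exact_mod_cast hp.two_le
    have : (p : ℤ) * n ≤ (p : ℤ) * charDegree χ := by nlinarith
    exact le_of_mul_le_mul_left this (by omega)
  have hne : (charDegree χ : ℤ) - n = 0 := by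
    by_contra h0
    have := Int.le_of_dvd (by omega) hdvd
    omega
  have : z = (charDegree χ : ℤ) := by
    have h3 : ((p : ℤ) - 1) * (z - charDegree χ) = 0 := by linear_combination hz' - (p : ℤ) * hne
    rcases mul_eq_zero.1 h3 with h | h
    · have := hp.two_le; omega
    · omega
  rw [this]
  simp

theorem exists_adm_mod (hP : Nat.card (P : Subgroup G) = p) {j : ℕ} (hj : ¬ p ∣ j) :
    ∃ k : ℕ, Adm p G k ∧ k ≡ j [MOD p] := by
  have hp : p.Prime := Fact.out
  have hdiv := p_dvd_card hP
  have hcop : Nat.Coprime (Nat.card G / p) p := by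
    refine ((Nat.Prime.coprime_iff_not_dvd hp).2 fun ⟨t, ht⟩ => ?_).symm
    have h2 : p ^ 2 ∣ Nat.card G := ⟨t, by rw [← Nat.div_mul_cancel hdiv, ht]; ring⟩
    rw [hp.pow_dvd_iff_le_factorization Nat.card_pos.ne', factorization_card hP] at h2
    omega
  obtain ⟨k, hk1, hk2⟩ := Nat.chineseRemainder hcop 1 j
  refine ⟨k, ⟨?_, hk1⟩, hk2⟩
  rw [← Nat.div_mul_cancel hdiv]
  refine Nat.Coprime.mul_right ?_ ?_
  · rw [Nat.Coprime, hk1.gcd_eq, Nat.gcd_one_left]
  · rw [Nat.Coprime, hk2.gcd_eq]
    exact ((Nat.Prime.coprime_iff_not_dvd hp).2 hj).symm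

theorem orderOf_of_mem (hP : Nat.card (P : Subgroup G) = p) {x : G} (hx : x ∈ (P : Subgroup G))
    (hx1 : x ≠ 1) : orderOf x = p :=
  orderOf_eq_prime (by
    have h := congrArg Subtype.val (pow_card_eq_one' (G := (P : Subgroup G)) (x := ⟨x, hx⟩))
    rwa [hP] at h) hx1

theorem zpowers_eq_P (hP : Nat.card (P : Subgroup G) = p) {x : G} (hx : x ∈ (P : Subgroup G))
    (hx1 : x ≠ 1) : Subgroup.zpowers x = (P : Subgroup G) :=
  Subgroup.eq_of_le_of_card_ge (Subgroup.zpowers_le.2 hx)
    (by rw [hP, Nat.card_zpowers, orderOf_of_mem hP hx hx1])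

/-- A character fixed by the admissible exponents is constant on the nontrivial powers. -/
theorem apply_eq_degree_of_fixed (hP : Nat.card (P : Subgroup G) = p) {χ : IrrCharacter G}
    (hfix : ∀ k, ∀ hk : Adm p G k, powIrr k hk χ = χ) (hd : charDegree (χ : G → ℂ) + 1 < p)
    {x : G} (hx : x ∈ (P : Subgroup G)) (hx1 : x ≠ 1) : (χ : G → ℂ) x = (χ : G → ℂ) 1 := by
  classical
  have hxo := orderOf_of_mem hP hx hx1
  refine apply_eq_degree_of_const hxo (isCharacter_of_isIrr χ.2) (fun y hy hy1 => ?_) hd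
  rw [mem_zpowers_iff_mem_range_orderOf] at hy
  obtain ⟨j, hj, rfl⟩ := Finset.mem_image.1 hy
  obtain ⟨k, hk, hkj⟩ := exists_adm_mod (P := P) hP (j := j) fun ⟨t, ht⟩ => hy1 (by
    rw [ht, pow_mul, ← hxo, pow_orderOf_eq_one, one_pow])
  rw [show x ^ j = x ^ k from pow_eq_pow_iff_modEq.2 (by rw [hxo]; exact hkj.symm)]
  exact congrFun (congrArg Subtype.val (hfix k hk)) x

theorem charKer_eq_top (hmin : Minimal P) {χ : IrrCharacter G} {x : G}
    (hx : x ∈ (P : Subgroup G)) (hx1 : x ≠ 1) (h : (χ : G → ℂ) x = (χ : G → ℂ) 1) :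
    charKer (χ : G → ℂ) = ⊤ :=
  hmin.gen _ (charKer_normal (isCharacter_of_isIrr χ.2)) (by
    rw [← zpowers_eq_P hmin.card_P hx hx1, Subgroup.zpowers_le,
      mem_charKer (isCharacter_of_isIrr χ.2)]
    exact h)

theorem degree_one_of_charKer (χ : IrrCharacter G) (h : charKer (χ : G → ℂ) = ⊤) :
    charDegree (χ : G → ℂ) = 1 ∧ ∀ g, (χ : G → ℂ) g = 1 := by
  have hc := isCharacter_of_isIrr χ.2
  have hv : ∀ g, (χ : G → ℂ) g = (charDegree (χ : G → ℂ) : ℂ) := fun g => by
    rw [← apply_one_eq_charDegree hc]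
    exact (mem_charKer hc).1 (h ▸ Subgroup.mem_top g)
  have h1 := classInner_irr_self χ.2
  rw [classInner] at h1
  simp only [hv, map_natCast, Finset.sum_const, Finset.card_univ, nsmul_eq_mul] at h1
  rw [← Nat.card_eq_fintype_card, ← mul_assoc,
    inv_mul_cancel₀ (Nat.cast_ne_zero.2 Nat.card_pos.ne'), one_mul] at h1
  norm_cast at h1
  obtain ⟨h2, -⟩ := mul_eq_one.1 h1
  exact ⟨h2, fun g => by rw [hv, h2, Nat.cast_one]⟩

theorem abelian_absurd (hmin : Minimal P) (h : ∀ a b : G, a * b = b * a) : False := by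
  refine hmin.not_normal ((Subgroup.eq_top_iff' _).2 fun g => ?_)
  refine Subgroup.mem_normalizer_iff.2 fun y => ?_
  rw [h g y, mul_inv_cancel_right]

theorem linear_absurd (hmin : Minimal P) {ψ : IrrCharacter G}
    (hf : ∀ g, (ψ : G → ℂ) g = (ψ : G → ℂ) 1 → g = 1)
    (h1 : charDegree (ψ : G → ℂ) = 1) : False := by
  have hc := isCharacter_of_isIrr ψ.2
  obtain ⟨l, hl⟩ := exists_hom_of_degree_one hc (by rw [apply_one_eq_charDegree hc, h1, Nat.cast_one])
  refine abelian_absurd hmin fun a b => ?_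
  have e : (a * b) * (b * a)⁻¹ = 1 := hf _ (by
    rw [hl, hl, map_one]
    congr 1
    rw [map_mul, map_inv, map_mul, map_mul, mul_comm (l b) (l a), mul_inv_cancel])
  exact mul_inv_eq_one.1 e

/-- The case where the normaliser is the centraliser. -/
theorem false_of_normalizer_eq (hM : IsPModular p M) (hmin : Minimal P) (hN : N P = C P)
    (ψ : IrrCharacter G) (hf : ∀ g, (ψ : G → ℂ) g = (ψ : G → ℂ) 1 → g = 1)
    (hd : charDegree (ψ : G → ℂ) + 1 < p) : False := by
  classical
  have hP := hmin.card_P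
  have hdpos : 0 < charDegree (ψ : G → ℂ) := by
    refine Nat.pos_of_ne_zero fun h => irr_degree_ne_zero ψ.2 ?_
    rw [apply_one_eq_charDegree (isCharacter_of_isIrr ψ.2), h, Nat.cast_zero]
  have hpd : ¬ p ∣ charDegree (ψ : G → ℂ) := fun h => by
    have := Nat.le_of_dvd hdpos h
    omega
  set B := blockOf M (ψ : G → ℂ)
  have hB : IsPBlock M B := Block.isPBlock_blockOf ψ
  have hψB : ψ ∈ B := Block.mem_blockOf_self ψ
  have hdef : blockDefect p B = 1 := by
    rw [blockDefect, factorization_card hP, show sInf ((fun χ : IrrCharacter G =>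
      (charDegree (χ : G → ℂ)).factorization p) '' B) = 0 from Nat.le_zero.1 (Nat.sInf_le
        ⟨ψ, hψB, Nat.factorization_eq_zero_of_not_dvd hpd⟩)]
  have hsq : ¬ p ^ 2 ∣ Nat.card G := fun h => by
    rw [(Fact.out : p.Prime).pow_dvd_iff_le_factorization Nat.card_pos.ne', factorization_card hP] at h
    omega
  obtain ⟨θ, hind⟩ := exists_trivial_inducing hM hP hB hdef
  obtain ⟨-, Z, Y, sgn, ε, hBeq, hdis, hZc, -, hε, hsgn, hZfix, -, -, hrel⟩ :=
    exists_structure_galois hM hP hsq θ hB hind hdef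
  have he : (C P).relIndex (Tgrp θ) = 1 :=
    Subgroup.relIndex_eq_one.2 fun g hg => hN ▸ (mem_Tgrp.1 hg).1
  rw [he, Finset.card_eq_one] at hZc
  obtain ⟨χ₁, rfl⟩ := hZc
  obtain ⟨x, hx, hx1⟩ := exists_mem_ne_one (P := P) hP
  rw [hBeq] at hψB
  rcases hψB with h | h
  · exact hx1 (hf x (apply_eq_degree_of_fixed hP (hZfix ψ h) hd hx hx1))
  · have e := hrel ψ h 1 (by rw [orderOf_one]; exact (Fact.out : p.Prime).not_dvd_one)
    rw [Finset.sum_singleton, apply_one_eq_charDegree (isCharacter_of_isIrr ψ.2),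
      apply_one_eq_charDegree (isCharacter_of_isIrr χ₁.2)] at e
    have hdeg : charDegree (χ₁ : G → ℂ) = charDegree (ψ : G → ℂ) := by
      have e' : ε * (charDegree (ψ : G → ℂ) : ℤ) = sgn χ₁ * (charDegree (χ₁ : G → ℂ) : ℤ) := by
        exact_mod_cast e
      rcases hε with rfl | rfl <;> rcases hsgn χ₁ (Finset.mem_singleton_self _) with h2 | h2 <;>
        rw [h2] at e' <;> omega
    have hker := charKer_eq_top hmin hx hx1 (apply_eq_degree_of_fixed hP
      (hZfix χ₁ (Finset.mem_singleton_self _)) (by rw [hdeg]; exact hd) hx hx1)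
    exact linear_absurd hmin hf (hdeg ▸ (degree_one_of_charKer χ₁ hker).1)

theorem normal_le_center (hmin : Minimal P) (hN : N P ≠ C P) {K : Subgroup G} (hK : K.Normal)
    (hne : K ≠ ⊤) : K ≤ Subgroup.center G := by
  have hP := hmin.card_P
  have hp : p.Prime := Fact.out
  have hKP : K ⊓ (P : Subgroup G) = ⊥ := by
    rw [Subgroup.eq_bot_iff_forall]
    intro y hy
    by_contra hy1
    exact hne (hmin.gen K hK (by
      rw [← zpowers_eq_P hP hy.2 hy1, Subgroup.zpowers_le]
      exact hy.1))
  have hcomm : ∀ k ∈ K, k ∈ N P → k ∈ C P := by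
    intro k hk hkN
    refine Subgroup.mem_centralizer_iff.2 fun y hy => ?_
    have h : y * k * y⁻¹ * k⁻¹ = 1 := by
      have hmem : y * k * y⁻¹ * k⁻¹ ∈ K ⊓ (P : Subgroup G) := by
        refine ⟨K.mul_mem (hK.conj_mem k hk y) (K.inv_mem hk), ?_⟩
        rw [show y * k * y⁻¹ * k⁻¹ = y * (k * y⁻¹ * k⁻¹) by simp only [mul_assoc]]
        exact (P : Subgroup G).mul_mem hy
          ((Subgroup.mem_normalizer_iff.1 hkN y⁻¹).1 ((P : Subgroup G).inv_mem hy))
      rwa [hKP, Subgroup.mem_bot] at hmem
    exact mul_inv_eq_one.1 (by simpa [mul_inv_rev, mul_assoc] using h)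
  haveI := hK
  by_cases htop : K ⊔ (P : Subgroup G) = ⊤
  · refine absurd (le_antisymm (fun n hn => ?_) (C_le_N P)) hN
    obtain ⟨k, hk, y, hy, rfl⟩ := Subgroup.mem_sup_of_normal_left.1
      (htop ▸ Subgroup.mem_top n : n ∈ K ⊔ (P : Subgroup G))
    have hy' : y ∈ C P := le_C (star_of_card hP) hy
    refine (C P).mul_mem (hcomm k hk ?_) hy'
    have := (N P).mul_mem hn ((N P).inv_mem (C_le_N P hy'))
    rwa [mul_inv_cancel_right] at this
  · have hKN : K ≤ N P := le_sup_left.trans (hmin.proper _ le_sup_right htop)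
    haveI : (Subgroup.centralizer (K : Set G)).Normal := Subgroup.normal_centralizer
    have hcen : Subgroup.centralizer (K : Set G) = ⊤ :=
      hmin.gen _ inferInstance fun y hy => Subgroup.mem_centralizer_iff.2 fun k hk =>
        (Subgroup.mem_centralizer_iff.1 (hcomm k hk (hKN hk)) y hy).symm
    intro k hk
    exact Subgroup.mem_center_iff.2 fun g =>
      (Subgroup.mem_centralizer_iff.1 (hcen ▸ Subgroup.mem_top g : g ∈ Subgroup.centralizer
        (K : Set G)) k hk).symm

/-- The elements of order prime to `p` of the centraliser form a subgroup. -/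
theorem exists_pPrime_complement (hP : Nat.card (P : Subgroup G) = p) :
    ∃ V : Subgroup G, V ≤ C P ∧ ¬ p ∣ Nat.card V ∧
      (∀ y ∈ C P, ¬ p ∣ orderOf y → y ∈ V) ∧
      (∀ c ∈ C P, ∃ x ∈ (P : Subgroup G), ∃ v ∈ V, x * v = c) ∧
      Nat.card (C P) = p * Nat.card V := by
  have hp : p.Prime := Fact.out
  set P' := (P : Subgroup G).subgroupOf (C P)
  haveI hn : P'.Normal := Subgroup.normal_subgroupOf_of_le_normalizer (C_le_N P)
  have hcard : Nat.card P' = p := by
    rw [Nat.card_congr (Subgroup.subgroupOfEquivOfLe (le_C (star_of_card hP))).toEquiv, hP]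
  have hidx : ¬ p ∣ P'.index := (P.subtype (le_C (star_of_card hP))).not_dvd_index
  obtain ⟨V', hV'⟩ := Subgroup.exists_right_complement'_of_coprime (N := P')
    (by rw [hcard]; exact hp.coprime_iff_not_dvd.2 hidx)
  have hVc : Nat.card V' = P'.index := hV'.symm.index_eq_card.symm
  refine ⟨V'.map (C P).subtype, Subgroup.map_subtype_le _, ?_, fun y hy hyp => ?_, fun c hc => ?_, ?_⟩
  · rw [Subgroup.card_map_of_injective Subtype.val_injective, hVc]
    exact hidx
  · obtain ⟨⟨⟨a, ha⟩, ⟨v, hv⟩⟩, he⟩ := hV'.2 ⟨y, hy⟩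
    simp only at he
    have hva : Commute (a : C P) v := Subtype.ext
      (Subgroup.mem_centralizer_iff.1 v.2 (a : G) ha)
    have ha1 : a = 1 := by
      by_contra hne
      refine hyp ?_
      have hap : orderOf a = p := by
        rw [← Subgroup.orderOf_coe]
        exact orderOf_of_mem hP ha fun h => hne (Subtype.ext h)
      have hvp : ¬ p ∣ orderOf v := fun h => hidx (hVc ▸ h.trans (by
        rw [← Subgroup.orderOf_mk v hv]; exact orderOf_dvd_natCard _))
      have := hva.orderOf_mul_eq_mul_orderOf_of_coprime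
        (by rw [hap]; exact hp.coprime_iff_not_dvd.2 hvp)
      rw [he, Subgroup.orderOf_mk, hap] at this
      exact this ▸ Dvd.intro _ rfl
    rw [ha1, one_mul] at he
    exact ⟨v, hv, congrArg Subtype.val he⟩
  · obtain ⟨⟨⟨a, ha⟩, ⟨v, hv⟩⟩, he⟩ := hV'.2 ⟨c, hc⟩
    exact ⟨a, ha, v, ⟨v, hv, rfl⟩, congrArg Subtype.val he⟩
  · rw [Subgroup.card_map_of_injective Subtype.val_injective, hVc]
    exact (Subgroup.card_mul_index P').symm.trans (congrArg (· * P'.index) hcard)

/-- In the main case the `p'`-part of the centraliser is central. -/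
theorem complement_central (hM : IsPModular p M) (hmin : Minimal P) (hN : N P ≠ C P) {d : ℕ}
    (ρ : Representation ℂ G (Fin d → ℂ)) (hρ : Function.Injective ρ) (hd : 2 * d ≤ p)
    {V : Subgroup G} (hVC : V ≤ C P) (hVp : ¬ p ∣ Nat.card V)
    (hVreg : ∀ y ∈ C P, ¬ p ∣ orderOf y → y ∈ V) : V ≤ Subgroup.center G := by
  classical
  haveI := Block.resField_charP (M := M) hM
  have hP := hmin.card_P
  have hp : p.Prime := Fact.out
  obtain ⟨x, hx, hx1⟩ := exists_mem_ne_one (P := P) hP
  have hxo := orderOf_of_mem hP hx hx1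
  have hnil := redRep_sub_one_pow M ρ hM (x := x) (hxo ▸ pow_orderOf_eq_one x)
  have hVx : ∀ v ∈ V, Commute x v := fun v hv => Subgroup.mem_centralizer_iff.1 (hVC hv) x hx
  have hreg : ∀ v ∈ V, ¬ p ∣ orderOf v := fun v hv h => hVp (h.trans (by
    rw [← Subgroup.orderOf_mk v hv]; exact orderOf_dvd_natCard _))
  have hVN : ∀ n ∈ N P, ∀ v ∈ V, n * v * n⁻¹ ∈ V := fun n hn v hv => by
    refine hVreg _ ?_ ?_
    · have := conj_mem_C (P := P) ((N P).inv_mem hn) (hVC hv)
      rwa [inv_inv] at this
    · rw [show orderOf (n * v * n⁻¹) = orderOf v by simpa using (MulAut.conj n).orderOf_eq v]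
      exact hreg v hv
  set σ := redRep M ρ with hσ
  have hσx : σ x ≠ 1 := by
    intro h
    have hker : σ.toHomUnits.ker = ⊤ := hmin.gen _ inferInstance (by
      rw [← zpowers_eq_P hP hx hx1, Subgroup.zpowers_le, MonoidHom.mem_ker]
      exact Units.ext h)
    refine hmin.not_normal ((Subgroup.eq_top_iff' _).2 fun g => ?_)
    have hall : ∀ y : G, ¬ p ∣ orderOf y → y = 1 := fun y hy => hρ (by
      rw [map_one]
      exact eq_one_of_redRep M ρ hM hy (congrArg Units.val
        (MonoidHom.mem_ker.1 (hker ▸ Subgroup.mem_top y : y ∈ σ.toHomUnits.ker))))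
    obtain ⟨a, b, hab, hc, ha, hb⟩ := Block.exists_isPPart (p := p) g
    rw [hall b hb, mul_one] at hab
    subst hab
    obtain ⟨i, hi⟩ := ha
    have hz : IsPGroup p (Subgroup.zpowers a) := IsPGroup.of_card (by rw [Nat.card_zpowers, hi])
    have hG : IsPGroup p G := fun y => by
      obtain ⟨c, e, hce, -, hc', he'⟩ := Block.exists_isPPart (p := p) y
      rw [hall e he', mul_one] at hce
      obtain ⟨i, hi⟩ := hc'
      exact ⟨i, by rw [← hce, ← hi, pow_orderOf_eq_one]⟩
    have htop : (P : Subgroup G) = ⊤ :=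
      (P.is_maximal' (IsPGroup.to_subgroup hG ⊤) le_top).symm
    exact Subgroup.le_normalizer (htop ▸ Subgroup.mem_top a)
  set A : Set (Module.End (Block.ResField M) (redMod M ρ)) :=
    {a | ∀ v ∈ V, endConj σ v a = a}
  have hstab : ∀ (g : G) a, a ∈ A → endConj σ g a ∈ A := fun g a ha =>
    centralizer_endConj_stable (p := p) σ hP hx hx1 V hVp hVx hVN hnil hd ha g
  let K : Subgroup G :=
    { carrier := {g | ∀ a ∈ A, endConj σ g a = a}
      one_mem' := fun a _ => by rw [endConj_one]; rfl
      mul_mem' := fun {g h} hg hh a ha => by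
        rw [endConj_mul, Module.End.mul_apply, hh a ha, hg a ha]
      inv_mem' := fun {g} hg a ha => by
        conv_lhs => rw [← hg a ha]
        rw [← Module.End.mul_apply, ← endConj_mul, inv_mul_cancel, endConj_one]
        rfl }
  have hK : K.Normal := ⟨fun g hg h a ha => by
    rw [endConj_mul, endConj_mul, Module.End.mul_apply, Module.End.mul_apply,
      hg _ (hstab h⁻¹ a ha), ← Module.End.mul_apply, ← endConj_mul, mul_inv_cancel, endConj_one]
    rfl⟩
  have hVK : V ≤ K := fun v hv a ha => ha v hv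
  refine hVK.trans (normal_le_center hmin hN hK fun htop => ?_)
  obtain ⟨a, ha, hne⟩ := exists_centralizer_not_commute (p := p) σ hσx V hVp hVx hnil
  exact hne ((htop ▸ Subgroup.mem_top x : x ∈ K) a ha)

/-- The key inequality for a constituent trivial on the `p'`-part of the centraliser. -/
theorem mult_bound (hM : IsPModular p M) (hmin : Minimal P) {V : Subgroup G} (hVC : V ≤ C P)
    (hVp : ¬ p ∣ Nat.card V) (hVreg : ∀ y ∈ C P, ¬ p ∣ orderOf y → y ∈ V)
    (hcard : Nat.card (C P) = p * Nat.card V) {χ : IrrCharacter G}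
    (hχ : ∀ v ∈ V, (χ : G → ℂ) v = (χ : G → ℂ) 1) (hne : ∃ g, (χ : G → ℂ) g ≠ 1) :
    (p + 1) * mult χ (phi lamOne (oneTh P)) ≤ 2 * charDegree (χ : G → ℂ) := by
  classical
  haveI := Fintype.ofFinite (C P)
  have hP := hmin.card_P
  have hp : p.Prime := Fact.out
  set m₀ := mult χ (phi lamOne (oneTh P)) with hm₀
  set dg := charDegree (χ : G → ℂ) with hdg
  have hc := isCharacter_of_isIrr χ.2
  have hR : R (oneTh P) χ = (dg : ℤ) := by
    rw [← Int.cast_inj (α := ℂ), R_eq hP, Int.cast_natCast]
    have hfil : ∑ y : C P, (if p ∣ orderOf y then 0 else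
        (χ : G → ℂ) y * conj (((oneTh P).1 : C P → ℂ) y)) = (Nat.card V : ℂ) * dg := by
      rw [Finset.sum_congr rfl (g := fun y : C P => if p ∣ orderOf y then 0 else (dg : ℂ))
        fun y _ => ?_, Finset.sum_ite, Finset.sum_const_zero, zero_add, Finset.sum_const,
        nsmul_eq_mul]
      · congr 2
        rw [← Nat.card_eq_finsetCard]
        refine Nat.card_congr
          { toFun := fun y => ⟨(y : C P), hVreg _ (y : C P).2 (by
              rw [Subgroup.orderOf_coe]; exact (Finset.mem_filter.1 y.2).2)⟩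
            invFun := fun v => ⟨⟨v, hVC v.2⟩, Finset.mem_filter.2 ⟨Finset.mem_univ _, fun h => hVp
              (h.trans (by
                rw [Subgroup.orderOf_mk, ← Subgroup.orderOf_mk (v : G) v.2]
                exact orderOf_dvd_natCard _))⟩⟩
            left_inv := fun y => rfl
            right_inv := fun v => rfl }
      · split_ifs with hy
        · rfl
        · rw [show ((oneTh P).1 : C P → ℂ) y = 1 from rfl, map_one, mul_one,
            hχ _ (hVreg _ y.2 (by rwa [Subgroup.orderOf_coe])), apply_one_eq_charDegree hc]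
    rw [hfil, hcard]
    push_cast
    have hV0 : (Nat.card V : ℂ) ≠ 0 := Nat.cast_ne_zero.2 Nat.card_pos.ne'
    have hp0 : (p : ℂ) ≠ 0 := Nat.cast_ne_zero.2 hp.ne_zero
    field_simp
  have hdpos : 0 < dg := by
    refine Nat.pos_of_ne_zero fun h => irr_degree_ne_zero χ.2 ?_
    rw [apply_one_eq_charDegree hc, ← hdg, h, Nat.cast_zero]
  have hcases : ∃ t : ℤ, (dg : ℤ) = (p : ℤ) * m₀ + t ∧
      (0 ≤ t ∨ t = -((p : ℤ) - 1) ∨ 0 < -t ∧ 2 * -t ≤ (p : ℤ) - 1) := by
    by_cases hB : χ ∈ principalBlock M G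
    · have h1 : ∃ ψ ∈ principalBlock M G, ¬ p ∣ charDegree (ψ : G → ℂ) :=
        ⟨Block.oneIrr G, Block.oneIrr_mem, by
          rw [show charDegree (Block.oneIrr G : G → ℂ) = 1 from charDegree_one]
          exact hp.not_dvd_one⟩
      obtain ⟨hdvd, Z, Y, sgn, ε, hBeq, -, -, -, -, hZ, -, -, -, -, hY⟩ :=
        exists_structure_full hM hP (oneTh P) Block.isPBlock_principalBlock (induced_principal hM hP)
          h1 (by rw [Tgrp_oneTh]; exact relIndex_le_blockRank hM hP)
      rw [hBeq] at hB
      rcases hB with hB | hB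
      · obtain ⟨hs, hv⟩ := hZ χ hB
        have h := eq_of_transform hP (fun ξ => (mult χ (phi ξ (oneTh P)) : ℂ) -
            if ξ = lamOne then (sgn χ : ℂ) else 0) (fun x hx => by
          have e := hv x hx
          rw [S] at e
          simp only [sub_mul, Finset.sum_sub_distrib, ite_mul, zero_mul, Finset.sum_ite_eq',
            Finset.mem_univ, if_true]
          rw [e, show (((lamOne : Lam P).1 (inC hP x) : ℂˣ) : ℂ) = 1 from rfl, mul_one, sub_self])
          lamOne
        simp only [if_true, Finset.sum_sub_distrib, Finset.sum_ite_eq', Finset.mem_univ] at h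
        have h' : (p : ℤ) * ((m₀ : ℤ) - sgn χ) = R (oneTh P) χ - sgn χ := by
          rw [← Int.cast_inj (α := ℂ), R, hm₀]
          push_cast
          exact h
        rw [hR] at h'
        refine ⟨(1 - (p : ℤ)) * sgn χ, by linear_combination -h', ?_⟩
        rcases hs with h2 | h2 <;> rw [h2]
        · exact Or.inr (Or.inl (by ring))
        · have := hp.two_le; left; omega
      · obtain ⟨s, hs, he⟩ := hY χ hB
        rw [hR] at he
        refine ⟨_, he, ?_⟩
        set e := (C P).relIndex (Tgrp (oneTh P))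
        have he0 : 0 < e := Nat.pos_of_ne_zero Subgroup.index_ne_zero_of_finite
        rcases hs with rfl | rfl
        · left; positivity
        · right
          have hle := Nat.le_of_dvd (by have := hp.two_le; omega) hdvd
          rcases hle.eq_or_lt with h | h
          · left; rw [h, Nat.cast_sub hp.one_le]; ring
          · right
            obtain ⟨k, hk⟩ := hdvd
            have hk2 : 2 ≤ k := by
              by_contra hk2
              have : k ≤ 1 := by omega
              have := Nat.mul_le_mul_left e this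
              omega
            have := Nat.mul_le_mul_left e hk2
            have := hp.two_le
            constructor <;> omega
    · have h := eq_of_transform hP (fun ξ => (mult χ (phi ξ (oneTh P)) : ℂ))
        (fun x hx => S_eq_zero hM hP (oneTh P) (induced_principal hM hP) hB hx) lamOne
      refine ⟨0, ?_, Or.inl le_rfl⟩
      rw [add_zero, ← hR, ← Int.cast_inj (α := ℂ), R, hm₀]
      push_cast
      exact h.symm
  obtain ⟨t, ht, htc⟩ := hcases
  have hgoal : ((p : ℤ) + 1) * m₀ ≤ 2 * dg := by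
    have hp2 : (2 : ℤ) ≤ p := by exact_mod_cast hp.two_le
    have hm : (0 : ℤ) ≤ m₀ := Int.natCast_nonneg _
    have hdp : (0 : ℤ) < dg := by exact_mod_cast hdpos
    rcases htc with h | h | ⟨h0, h⟩
    · nlinarith
    · by_cases h1 : m₀ = 1
      · exfalso
        rw [h, h1] at ht
        have hd1 : dg = 1 := by omega
        obtain ⟨l, hl⟩ := exists_hom_of_degree_one hc
          (by rw [apply_one_eq_charDegree hc, ← hdg, hd1, Nat.cast_one])
        have hsum := mult_spec χ (phi lamOne (oneTh P))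
        rw [← hm₀, h1, Nat.cast_one] at hsum
        have hphi : ∀ c : C P, (phi lamOne (oneTh P) : C P → ℂ) c = 1 := fun c => by
          show ((((lamOne : Lam P).1 c : ℂˣ)) : ℂ) * ((oneTh P).1 : C P → ℂ) c = 1
          rw [show ((oneTh P).1 : C P → ℂ) c = 1 from rfl, mul_one]
          rfl
        rw [classInner] at hsum
        simp only [hphi, map_one, mul_one] at hsum
        have htr : l.comp (C P).subtype = 1 := by
          by_contra hne1
          have h0 := sum_hom_units_eq_zero ((Units.coeHom ℂ).comp (l.comp (C P).subtype))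
            fun he => hne1 (MonoidHom.ext fun c => Units.ext (DFunLike.congr_fun he c))
          rw [Finset.sum_congr rfl (g := fun c : C P => (((l.comp (C P).subtype) c : ℂˣ) : ℂ))
            fun c _ => hl (c : G)] at hsum
          simp only [MonoidHom.comp_apply, Units.coeHom_apply] at h0
          simp only [MonoidHom.comp_apply] at hsum
          rw [h0, mul_zero] at hsum
          exact zero_ne_one hsum
        obtain ⟨x, hx, hx1⟩ := exists_mem_ne_one (P := P) hP
        have hker := charKer_eq_top hmin hx hx1 (by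
          rw [hl, hl, map_one]
          exact congrArg Units.val (DFunLike.congr_fun htr ⟨x, le_C (star_of_card hP) hx⟩))
        obtain ⟨g, hg⟩ := hne
        exact hg ((degree_one_of_charKer χ hker).2 g)
      · have : (2 : ℤ) ≤ m₀ := by
          by_contra hh
          have : m₀ = 0 := by omega
          rw [this] at ht
          push_cast at ht
          omega
        nlinarith
    · have : (1 : ℤ) ≤ m₀ := by
        by_contra hh
        have : (m₀ : ℤ) = 0 := by omega
        rw [this] at ht
        omega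
      nlinarith
  exact_mod_cast hgoal

/-- The case where the centraliser is proper in the normaliser. -/
theorem false_of_normalizer_ne (hM : IsPModular p M) (hmin : Minimal P) (hN : N P ≠ C P)
    (ψ : IrrCharacter G) (hf : ∀ g, (ψ : G → ℂ) g = (ψ : G → ℂ) 1 → g = 1)
    (hd : 2 * charDegree (ψ : G → ℂ) + 1 < p) : False := by
  classical
  haveI := Fintype.ofFinite (C P)
  have hP := hmin.card_P
  have hp : p.Prime := Fact.out
  obtain ⟨n, ρ, hρirr, hρ⟩ := ψ.2
  haveI := hρirr
  have hn : charDegree (ψ : G → ℂ) = n := by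
    refine Nat.cast_injective (R := ℂ) ?_
    rw [← apply_one_eq_charDegree (isCharacter_of_isIrr ψ.2), ← hρ, Representation.char_one,
      Module.finrank_fin_fun]
  set d := charDegree (ψ : G → ℂ) with hdd
  have hinj : Function.Injective ρ := by
    intro a b h
    refine mul_inv_eq_one.1 (hf _ ?_)
    rw [← hρ]
    show LinearMap.trace _ _ (ρ (a * b⁻¹)) = LinearMap.trace _ _ (ρ 1)
    rw [map_mul, h, ← map_mul, mul_inv_cancel]
  obtain ⟨V, hVC, hVp, hVreg, hdec, hcard⟩ := exists_pPrime_complement (P := P) hP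
  have hVZ := complement_central hM hmin hN ρ hinj (by omega) hVC hVp hVreg
  -- the centraliser is abelian
  have hCcomm : ∀ a b : C P, a * b = b * a := by
    intro a b
    obtain ⟨x, hx, v, hv, hav⟩ := hdec a a.2
    refine Subtype.ext ?_
    show (a : G) * b = b * a
    rw [← hav]
    exact (Commute.mul_left (Subgroup.mem_centralizer_iff.1 b.2 x hx)
      (Subgroup.mem_center_iff.1 (hVZ hv) b).symm).eq
  have hlin : ∀ φ : IrrCharacter (C P), (φ : C P → ℂ) 1 = 1 := by
    intro φ
    have hcφ := isCharacter_of_isIrr φ.2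
    have hnorm : ∀ c, ‖(φ : C P → ℂ) c‖ = ‖(φ : C P → ℂ) 1‖ := fun c =>
      norm_char_of_mem_center φ.2 (Subgroup.mem_center_iff.2 fun g => hCcomm g c)
    have h1 := classInner_irr_self φ.2
    rw [classInner] at h1
    simp only [Complex.mul_conj', hnorm, apply_one_eq_charDegree hcφ, Complex.norm_natCast,
      Finset.sum_const, Finset.card_univ, nsmul_eq_mul] at h1
    rw [← Nat.card_eq_fintype_card, ← mul_assoc,
      inv_mul_cancel₀ (Nat.cast_ne_zero.2 Nat.card_pos.ne'), one_mul] at h1
    norm_cast at h1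
    rw [apply_one_eq_charDegree hcφ, (Nat.pow_eq_one.1 h1).resolve_right two_ne_zero, Nat.cast_one]
  set Φ : G → ℂ := fun g => (ψ : G → ℂ) g * conj ((ψ : G → ℂ) g) with hΦ
  have hΦc : IsCharacter G Φ :=
    isCharacter_mul (isCharacter_of_isIrr ψ.2) (isCharacter_conj (isCharacter_of_isIrr ψ.2))
  choose c hcdef using fun χ : IrrCharacter G =>
    classInner_natCast hΦc (isCharacter_of_isIrr χ.2)
  have hexp : ∀ g, Φ g = ∑ χ : IrrCharacter G, (c χ : ℂ) * (χ : G → ℂ) g := fun g => by
    conv_lhs => rw [eq_sum_classInner_smul (isClassFunction_of_isCharacter hΦc)]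
    simp only [Finset.sum_apply, Pi.smul_apply, smul_eq_mul, hcdef]
  have hψ1 : (ψ : G → ℂ) 1 = (d : ℂ) := apply_one_eq_charDegree (isCharacter_of_isIrr ψ.2)
  have hΦ1 : Φ 1 = (d : ℂ) ^ 2 := by simp only [hΦ, hψ1, map_natCast, sq]
  have hsumdeg : ∑ χ : IrrCharacter G, c χ * charDegree (χ : G → ℂ) = d ^ 2 := by
    refine Nat.cast_injective (R := ℂ) ?_
    push_cast
    rw [← hΦ1, hexp]
    exact Finset.sum_congr rfl fun χ _ => by
      rw [apply_one_eq_charDegree (isCharacter_of_isIrr χ.2)]
  have htrivV : ∀ χ : IrrCharacter G, c χ ≠ 0 → ∀ v ∈ V, (χ : G → ℂ) v = (χ : G → ℂ) 1 := by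
    intro χ hχ v hv
    have hnv := norm_char_of_mem_center ψ.2 (hVZ hv)
    have h1 : Φ v = Φ 1 := by
      simp only [hΦ, Complex.mul_conj', hnv]
    rw [hexp, hexp] at h1
    have h2 : ∑ χ : IrrCharacter G, (c χ : ℝ) *
        ((charDegree (χ : G → ℂ) : ℝ) - ((χ : G → ℂ) v).re) = 0 := by
      have h := congrArg Complex.re h1
      simp only [Complex.re_sum, Complex.mul_re, Complex.natCast_re, Complex.natCast_im, zero_mul,
        sub_zero, apply_one_eq_charDegree (isCharacter_of_isIrr (Subtype.prop _))] at h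
      simp only [mul_sub, Finset.sum_sub_distrib]
      rw [h, sub_eq_zero]
    have hle : ∀ χ : IrrCharacter G, ((χ : G → ℂ) v).re ≤ charDegree (χ : G → ℂ) := fun χ => by
      refine (Complex.re_le_norm _).trans ((norm_apply_le (isCharacter_of_isIrr χ.2) v).trans ?_)
      rw [apply_one_eq_charDegree (isCharacter_of_isIrr χ.2), Complex.norm_natCast]
    have h3 := (Finset.sum_eq_zero_iff_of_nonneg (fun χ _ => mul_nonneg (Nat.cast_nonneg _)
      (sub_nonneg.2 (hle χ)))).1 h2 χ (Finset.mem_univ _)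
    have h4 : ((χ : G → ℂ) v).re = charDegree (χ : G → ℂ) :=
      (sub_eq_zero.1 ((mul_eq_zero.1 h3).resolve_left (Nat.cast_ne_zero.2 hχ))).symm
    rw [apply_one_eq_charDegree (isCharacter_of_isIrr χ.2)]
    have h5 := norm_apply_le (isCharacter_of_isIrr χ.2) v
    rw [apply_one_eq_charDegree (isCharacter_of_isIrr χ.2), Complex.norm_natCast, ← h4] at h5
    have h6 : ((χ : G → ℂ) v).im = 0 := by
      have h7 : ‖(χ : G → ℂ) v‖ = ((χ : G → ℂ) v).re :=
        le_antisymm h5 (Complex.re_le_norm _)
      exact Complex.re_eq_norm.1 h7.symm |>.2.symm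
    exact Complex.ext (by rw [h4, Complex.natCast_re]) (by rw [h6, Complex.natCast_im])
  -- the trivial constituent
  set ι := Block.oneIrr G with hι
  have hι1 : ∀ g, (ι : G → ℂ) g = 1 := fun g => rfl
  have hc1 : c ι = 1 := by
    refine Nat.cast_injective (R := ℂ) ?_
    rw [← hcdef, Nat.cast_one, ← classInner_irr_self ψ.2]
    simp only [classInner, hι1, map_one, mul_one, hΦ]
  have hm1 : mult ι (phi lamOne (oneTh P)) = 1 := by
    refine Nat.cast_injective (R := ℂ) ?_
    rw [← mult_spec, Nat.cast_one, ← classInner_irr_self (phi lamOne (oneTh P)).2]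
    refine congrArg (fun f => classInner f _) (funext fun c => ?_)
    show (1 : ℂ) = (((lamOne : Lam P).1 c : ℂˣ) : ℂ) * ((oneTh P).1 : C P → ℂ) c
    rw [show ((oneTh P).1 : C P → ℂ) c = 1 from rfl, mul_one]
    rfl
  have hnat : ∀ χ, χ ≠ ι → (p + 1) * (c χ * mult χ (phi lamOne (oneTh P))) ≤
      2 * (c χ * charDegree (χ : G → ℂ)) := by
    intro χ hχ
    by_cases h0 : c χ = 0
    · simp [h0]
    · have hne : ∃ g, (χ : G → ℂ) g ≠ 1 := by
        by_contra hh
        push Not at hh
        exact hχ (Subtype.ext (funext fun g => (hh g).trans (hι1 g).symm))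
      have := mult_bound hM hmin hVC hVp hVreg hcard (htrivV χ h0) hne
      nlinarith
  -- the multiplicity of the trivial character
  have hM0 : d ≤ ∑ χ : IrrCharacter G, c χ * mult χ (phi lamOne (oneTh P)) := by
    have hres := isClassFunction_of_isCharacter
      (isCharacter_restrict (isCharacter_of_isIrr ψ.2) (C P))
    have e1 : ((∑ χ : IrrCharacter G, c χ * mult χ (phi lamOne (oneTh P)) : ℕ) : ℂ) =
        classInner (fun a : C P => (ψ : G → ℂ) a) (fun a : C P => (ψ : G → ℂ) a) := by
      push_cast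
      simp only [← mult_spec, classInner, Finset.mul_sum]
      rw [Finset.sum_comm]
      refine Finset.sum_congr rfl fun a _ => ?_
      rw [show (phi lamOne (oneTh P) : C P → ℂ) a = 1 from by
        show ((((lamOne : Lam P).1 a : ℂˣ)) : ℂ) * ((oneTh P).1 : C P → ℂ) a = 1
        rw [show ((oneTh P).1 : C P → ℂ) a = 1 from rfl, mul_one]
        rfl, map_one]
      rw [show (ψ : G → ℂ) a * conj ((ψ : G → ℂ) a) = Φ a from rfl, hexp, Finset.mul_sum]
      exact Finset.sum_congr rfl fun χ _ => by ring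
    rw [classInner_eq_sum hres] at e1
    simp only [mult_spec, map_natCast] at e1
    norm_cast at e1
    rw [e1]
    have e2 : (d : ℂ) = ((∑ φ : IrrCharacter (C P), mult ψ φ : ℕ) : ℂ) := by
      have h := restrict_eq ψ (1 : C P)
      rw [OneMemClass.coe_one, hψ1] at h
      rw [h]
      push_cast
      exact Finset.sum_congr rfl fun φ _ => by rw [hlin, mul_one]
    rw [Nat.cast_injective (R := ℂ) e2]
    exact Finset.sum_le_sum fun φ _ => Nat.le_mul_self _
  have hd2 : 2 ≤ d := by
    by_contra h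
    have hd0 : d ≠ 0 := fun h0 => irr_degree_ne_zero ψ.2 (by rw [hψ1, h0, Nat.cast_zero])
    exact linear_absurd hmin hf (by omega)
  have hmain : (p + 1) * d ≤ (p + 1) + 2 * (d ^ 2 - 1) := by
    have hdeg1 : charDegree (ι : G → ℂ) = 1 := charDegree_one
    calc (p + 1) * d ≤ (p + 1) * ∑ χ : IrrCharacter G, c χ * mult χ (phi lamOne (oneTh P)) :=
          Nat.mul_le_mul_left _ hM0
      _ = (p + 1) + ∑ χ ∈ Finset.univ.erase ι, (p + 1) * (c χ * mult χ (phi lamOne (oneTh P))) := by
          rw [← Finset.add_sum_erase _ _ (Finset.mem_univ ι), hc1, hm1, mul_add, Finset.mul_sum]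
          ring
      _ ≤ (p + 1) + ∑ χ ∈ Finset.univ.erase ι, 2 * (c χ * charDegree (χ : G → ℂ)) :=
          Nat.add_le_add_left (Finset.sum_le_sum fun χ hχ => hnat χ (Finset.ne_of_mem_erase hχ)) _
      _ = _ := by
          rw [← Finset.mul_sum, ← hsumdeg, ← Finset.add_sum_erase _ _ (Finset.mem_univ ι), hc1,
            hdeg1, one_mul, Nat.add_sub_cancel_left]
  have : 1 ≤ d ^ 2 := Nat.one_le_pow _ _ (by omega)
  zify [this] at hmain
  nlinarith

/-- A faithful character of degree less than `(p - 1) / 2` forces a normal Sylow subgroup. -/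
theorem sylow_normal_of_small_degree (hM : IsPModular p M) :
    ∀ (n : ℕ) (H : Type u) [Group H] [Finite H] (P : Sylow p H), Nat.card H ≤ n →
      Nat.card (P : Subgroup H) = p → ∀ χ : H → ℂ, IsCharacter H χ →
      (∀ g : H, χ g = χ 1 → g = 1) → 2 * charDegree χ + 1 < p → (P : Subgroup H).Normal := by
  intro n
  induction n with
  | zero => intro H _ _ _ hH; exact absurd hH (by have := Nat.card_pos (α := H); omega)
  | succ n ih =>
    intro H _ _ P hcardH hP χ hχ hf hd
    classical
    haveI := Fintype.ofFinite H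
    have hp : p.Prime := Fact.out
    by_contra hnn
    -- proper subgroups and quotients
    have hsub : ∀ K : Subgroup H, (P : Subgroup H) ≤ K → K ≠ ⊤ → K ≤ N P := by
      intro K hPK hK
      have hlt : Nat.card K < Nat.card H :=
        lt_of_le_of_ne (Subgroup.card_le_card_group K)
          fun h => hK (Subgroup.eq_top_of_card_eq K h)
      have hnorm := ih K (P.subtype hPK) (by omega) (by
        rw [Sylow.coe_subtype, Nat.card_congr (Subgroup.subgroupOfEquivOfLe hPK).toEquiv, hP])
        (fun k : K => χ k) (isCharacter_restrict hχ K) (fun k hk => Subtype.ext (hf k hk))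
        (by
          rw [show charDegree (fun k : K => χ k) = charDegree χ from Nat.cast_injective (R := ℂ) (by
            rw [← apply_one_eq_charDegree (isCharacter_restrict hχ K), ← apply_one_eq_charDegree hχ]
            rfl)]
          exact hd)
      rw [Sylow.coe_subtype] at hnorm
      exact (Subgroup.normal_subgroupOf_iff_le_normalizer hPK).1 hnorm
    have hNtop : N P ≠ ⊤ := fun h => hnn (Subgroup.normalizer_eq_top_iff.1 h)
    have hgen : ∀ K : Subgroup H, K.Normal → (P : Subgroup H) ≤ K → K = ⊤ := by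
      intro K hK hPK
      by_contra hne
      refine hnn ⟨fun y hy g => ?_⟩
      have hKN := hsub K hPK hne
      have hmem : g * y * g⁻¹ ∈ K := hK.conj_mem y (hPK hy) g
      refine mem_sylow_of_mem_normalizer (hKN hmem) ⟨?_, ?_⟩
      · exact if y = 1 then 0 else 1
      · have e : orderOf (g * y * g⁻¹) = orderOf y := by
          simpa using (MulAut.conj g).orderOf_eq y
        rw [e]
        split_ifs with h1
        · rw [h1, orderOf_one, pow_zero]
        · rw [orderOf_of_mem hP hy h1, pow_one]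
    have hmin : Minimal P := ⟨hP, hgen, hsub, hNtop⟩
    -- an irreducible constituent
    obtain ⟨x, hx, hx1⟩ := exists_mem_ne_one (P := P) hP
    obtain ⟨m, hm⟩ : ∃ m : IrrCharacter H → ℕ, ∀ g, χ g = ∑ ζ, (m ζ : ℂ) * (ζ : H → ℂ) g := by
      choose m hm using fun ζ : IrrCharacter H => classInner_natCast hχ (isCharacter_of_isIrr ζ.2)
      refine ⟨m, fun g => ?_⟩
      conv_lhs => rw [eq_sum_classInner_smul (isClassFunction_of_isCharacter hχ)]
      simp only [Finset.sum_apply, Pi.smul_apply, smul_eq_mul, hm]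
    obtain ⟨g₀, hg₀⟩ : ∃ g₀ : H, g₀ * x * g₀⁻¹ ∉ (P : Subgroup H) := by
      by_contra hcon
      push Not at hcon
      refine hnn ⟨fun y hy g => ?_⟩
      rw [← zpowers_eq_P hP hx hx1] at hy ⊢
      obtain ⟨i, rfl⟩ := hy
      show g * x ^ i * g⁻¹ ∈ Subgroup.zpowers x
      rw [← conj_zpow, zpowers_eq_P hP hx hx1]
      exact (P : Subgroup H).zpow_mem (hcon g) i
    set c₀ := ⁅g₀ * x * g₀⁻¹, x⁆ with hc₀
    have hc₀1 : c₀ ≠ 1 := by
      intro h
      refine hg₀ (mem_sylow_of_mem_normalizer (C_le_N P ?_) ⟨1, ?_⟩)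
      · show g₀ * x * g₀⁻¹ ∈ Subgroup.centralizer ((P : Subgroup H) : Set H)
        rw [← star_of_card hP x hx hx1, Subgroup.mem_centralizer_singleton_iff]
        exact commutatorElement_eq_one_iff_mul_comm.1 h
      · rw [pow_one, show orderOf (g₀ * x * g₀⁻¹) = orderOf x by
          simpa using (MulAut.conj g₀).orderOf_eq x]
        exact orderOf_of_mem hP hx hx1
    obtain ⟨ψ, hψm, hψc₀⟩ : ∃ ψ : IrrCharacter H, m ψ ≠ 0 ∧ (ψ : H → ℂ) c₀ ≠ (ψ : H → ℂ) 1 := by
      by_contra hcon
      push Not at hcon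
      refine hc₀1 (hf c₀ ?_)
      rw [hm, hm]
      refine Finset.sum_congr rfl fun ζ _ => ?_
      by_cases h : m ζ = 0
      · simp [h]
      · rw [hcon ζ h]
    have hψd : charDegree (ψ : H → ℂ) ≤ charDegree χ := by
      have e : charDegree χ = ∑ ζ, m ζ * charDegree (ζ : H → ℂ) := Nat.cast_injective (R := ℂ) (by
        rw [← apply_one_eq_charDegree hχ, hm]
        push_cast
        exact Finset.sum_congr rfl fun ζ _ => by
          rw [apply_one_eq_charDegree (isCharacter_of_isIrr ζ.2)])
      rw [e]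
      exact (Nat.le_mul_of_pos_left _ (Nat.pos_of_ne_zero hψm)).trans
        (Finset.single_le_sum (f := fun ζ => m ζ * charDegree (ζ : H → ℂ))
          (fun _ _ => Nat.zero_le _) (Finset.mem_univ ψ))
    have hψc := isCharacter_of_isIrr ψ.2
    by_cases hfψ : ∀ g : H, (ψ : H → ℂ) g = (ψ : H → ℂ) 1 → g = 1
    · by_cases hN : N P = C P
      · exact false_of_normalizer_eq hM hmin hN ψ hfψ (by omega)
      · exact false_of_normalizer_ne hM hmin hN ψ hfψ (by omega)
    · push Not at hfψ
      obtain ⟨g, hg, hg1⟩ := hfψ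
      set K := charKer (ψ : H → ℂ)
      haveI hKn : K.Normal := charKer_normal hψc
      have hcK : c₀ ∉ K := fun h => hψc₀ ((mem_charKer hψc).1 h)
      have hxK : x ∉ K := fun h => hcK (by
        rw [hc₀, commutatorElement_def]
        exact K.mul_mem (K.mul_mem (K.mul_mem (hKn.conj_mem x h g₀) h)
          (K.inv_mem (hKn.conj_mem x h g₀))) (K.inv_mem h))
      obtain ⟨χ', hχ', hval⟩ := exists_deflation hψc K fun k hk => (mem_charKer hψc).1 hk
      have hlt : Nat.card (H ⧸ K) < Nat.card H := by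
        rw [← Subgroup.index_eq_card, ← K.index_mul_card]
        refine lt_mul_of_one_lt_right (Nat.pos_of_ne_zero Subgroup.index_ne_zero_of_finite) ?_
        exact Finite.one_lt_card_iff_nontrivial.2 ⟨⟨⟨g, (mem_charKer hψc).2 hg⟩, 1,
          fun e => hg1 (congrArg Subtype.val e)⟩⟩
      let Q := P.mapSurjective (QuotientGroup.mk'_surjective K)
      have hQc : Nat.card (Q : Subgroup (H ⧸ K)) = p := by
        rw [Sylow.coe_mapSurjective, ← zpowers_eq_P hP hx hx1, MonoidHom.map_zpowers,
          Nat.card_zpowers]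
        refine orderOf_eq_prime ?_ fun h => hxK ((QuotientGroup.eq_one_iff x).1 h)
        rw [← map_pow, ← orderOf_of_mem hP hx hx1, pow_orderOf_eq_one, map_one]
      have hf' : ∀ q : H ⧸ K, χ' q = χ' 1 → q = 1 := by
        intro q hq
        obtain ⟨h, rfl⟩ := QuotientGroup.mk_surjective q
        rw [QuotientGroup.eq_one_iff]
        refine (mem_charKer hψc).2 ?_
        rw [← hval h, ← hval 1, QuotientGroup.mk_one]
        exact hq
      have hd' : charDegree χ' = charDegree (ψ : H → ℂ) := Nat.cast_injective (R := ℂ) (by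
        rw [← apply_one_eq_charDegree hχ', ← apply_one_eq_charDegree hψc, ← hval 1,
          QuotientGroup.mk_one])
      have hn' := ih (H ⧸ K) Q (by omega) hQc χ' hχ' hf' (by omega)
      rw [Sylow.coe_mapSurjective] at hn'
      have hL := hn'.comap (QuotientGroup.mk' K)
      rw [Subgroup.comap_map_eq, QuotientGroup.ker_mk'] at hL
      have htop := hgen _ hL le_sup_left
      refine hcK ?_
      have hQtop : (P : Subgroup H).map (QuotientGroup.mk' K) = ⊤ := by
        have := congrArg (Subgroup.map (QuotientGroup.mk' K)) htop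
        rwa [Subgroup.map_sup, QuotientGroup.map_mk'_self, sup_bot_eq,
          Subgroup.map_top_of_surjective _ (QuotientGroup.mk'_surjective K)] at this
      have hab : ∀ a b : H ⧸ K, a * b = b * a := by
        intro a b
        obtain ⟨a', ha, rfl⟩ := (hQtop ▸ Subgroup.mem_top a :
          a ∈ (P : Subgroup H).map (QuotientGroup.mk' K))
        obtain ⟨b', hb, rfl⟩ := (hQtop ▸ Subgroup.mem_top b :
          b ∈ (P : Subgroup H).map (QuotientGroup.mk' K))
        rw [← map_mul, ← map_mul,
          Subgroup.mem_centralizer_iff.1 (le_C (star_of_card hP) hb) a' ha]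
      rw [← QuotientGroup.eq_one_iff]
      show QuotientGroup.mk' K c₀ = 1
      rw [hc₀, map_commutatorElement]
      exact commutatorElement_eq_one_iff_mul_comm.2 (hab _ _)

end Cfsg.Agent.Lib.DefectOne
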