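import Cfsg.Agent.Lib.DefectOne.SmallDegree
import Cfsg.Agent.Lib.Char.Degree

/-!
# Degree `(p - 1) / 2` for groups of odd order

For a group of odd order the bound of `sylow_normal_of_small_degree` may be attained.
-/

set_option autoImplicit false
set_option linter.unusedSectionVars false
set_option linter.style.haveILetI false

namespace Cfsg.Agent.Lib.DefectOne

open Cfsg Cfsg.Agent.Lib Cfsg.Agent.Lib.Char Cfsg.Agent.Lib.Char.UC
open scoped ComplexConjugate commutatorElement

universe u

variable {p : ℕ} [Fact p.Prime] {G : Type u} [Group G] [Fintype G] {P : Sylow p G}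
  {M : Ideal AlgInt} [M.IsPrime]

/-- The case where the centraliser is proper in the normaliser. -/
theorem false_of_normalizer_ne_of_odd (hodd : Odd (Nat.card G)) (hM : IsPModular p M) (hmin : Minimal P) (hN : N P ≠ C P)
    (ψ : IrrCharacter G) (hf : ∀ g, (ψ : G → ℂ) g = (ψ : G → ℂ) 1 → g = 1)
    (hd : 2 * charDegree (ψ : G → ℂ) + 1 ≤ p) : False := by
  classical
  haveI := Fintype.ofFinite (C P)
  have hP := hmin.card_P
  have hp : p.Prime := Fact.out
  obtain ⟨n, ρ, hρirr, hρ⟩ := ψ.2
  haveI := hρirr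
  have hn : charDegree (ψ : G → ℂ) = n := by
    refine Nat.cast_injective (R := ℂ) ?_
    rw [← apply_one_eq_charDegree (isCharacter_of_isIrr ψ.2), ← hρ, Representation.char_one,
      Module.finrank_fin_fun]
  set d := charDegree (ψ : G → ℂ) with hdd
  have hinj : Function.Injective ρ := by
    intro a b h
    refine mul_inv_eq_one.1 (hf _ ?_)
    rw [← hρ]
    show LinearMap.trace _ _ (ρ (a * b⁻¹)) = LinearMap.trace _ _ (ρ 1)
    rw [map_mul, h, ← map_mul, mul_inv_cancel]
  obtain ⟨V, hVC, hVp, hVreg, hdec, hcard⟩ := exists_pPrime_complement (P := P) hP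
  have hVZ := complement_central hM hmin hN ρ hinj (by omega) hVC hVp hVreg
  -- the centraliser is abelian
  have hCcomm : ∀ a b : C P, a * b = b * a := by
    intro a b
    obtain ⟨x, hx, v, hv, hav⟩ := hdec a a.2
    refine Subtype.ext ?_
    show (a : G) * b = b * a
    rw [← hav]
    exact (Commute.mul_left (Subgroup.mem_centralizer_iff.1 b.2 x hx)
      (Subgroup.mem_center_iff.1 (hVZ hv) b).symm).eq
  have hlin : ∀ φ : IrrCharacter (C P), (φ : C P → ℂ) 1 = 1 := by
    intro φ
    have hcφ := isCharacter_of_isIrr φ.2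
    have hnorm : ∀ c, ‖(φ : C P → ℂ) c‖ = ‖(φ : C P → ℂ) 1‖ := fun c =>
      norm_char_of_mem_center φ.2 (Subgroup.mem_center_iff.2 fun g => hCcomm g c)
    have h1 := classInner_irr_self φ.2
    rw [classInner] at h1
    simp only [Complex.mul_conj', hnorm, apply_one_eq_charDegree hcφ, Complex.norm_natCast,
      Finset.sum_const, Finset.card_univ, nsmul_eq_mul] at h1
    rw [← Nat.card_eq_fintype_card, ← mul_assoc,
      inv_mul_cancel₀ (Nat.cast_ne_zero.2 Nat.card_pos.ne'), one_mul] at h1
    norm_cast at h1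
    rw [apply_one_eq_charDegree hcφ, (Nat.pow_eq_one.1 h1).resolve_right two_ne_zero, Nat.cast_one]
  set Φ : G → ℂ := fun g => (ψ : G → ℂ) g * conj ((ψ : G → ℂ) g) with hΦ
  have hΦc : IsCharacter G Φ :=
    isCharacter_mul (isCharacter_of_isIrr ψ.2) (isCharacter_conj (isCharacter_of_isIrr ψ.2))
  choose c hcdef using fun χ : IrrCharacter G =>
    classInner_natCast hΦc (isCharacter_of_isIrr χ.2)
  have hexp : ∀ g, Φ g = ∑ χ : IrrCharacter G, (c χ : ℂ) * (χ : G → ℂ) g := fun g => by
    conv_lhs => rw [eq_sum_classInner_smul (isClassFunction_of_isCharacter hΦc)]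
    simp only [Finset.sum_apply, Pi.smul_apply, smul_eq_mul, hcdef]
  have hψ1 : (ψ : G → ℂ) 1 = (d : ℂ) := apply_one_eq_charDegree (isCharacter_of_isIrr ψ.2)
  have hΦ1 : Φ 1 = (d : ℂ) ^ 2 := by simp only [hΦ, hψ1, map_natCast, sq]
  have hsumdeg : ∑ χ : IrrCharacter G, c χ * charDegree (χ : G → ℂ) = d ^ 2 := by
    refine Nat.cast_injective (R := ℂ) ?_
    push_cast
    rw [← hΦ1, hexp]
    exact Finset.sum_congr rfl fun χ _ => by
      rw [apply_one_eq_charDegree (isCharacter_of_isIrr χ.2)]
  have htrivV : ∀ χ : IrrCharacter G, c χ ≠ 0 → ∀ v ∈ V, (χ : G → ℂ) v = (χ : G → ℂ) 1 := by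
    intro χ hχ v hv
    have hnv := norm_char_of_mem_center ψ.2 (hVZ hv)
    have h1 : Φ v = Φ 1 := by
      simp only [hΦ, Complex.mul_conj', hnv]
    rw [hexp, hexp] at h1
    have h2 : ∑ χ : IrrCharacter G, (c χ : ℝ) *
        ((charDegree (χ : G → ℂ) : ℝ) - ((χ : G → ℂ) v).re) = 0 := by
      have h := congrArg Complex.re h1
      simp only [Complex.re_sum, Complex.mul_re, Complex.natCast_re, Complex.natCast_im, zero_mul,
        sub_zero, apply_one_eq_charDegree (isCharacter_of_isIrr (Subtype.prop _))] at h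
      simp only [mul_sub, Finset.sum_sub_distrib]
      rw [h, sub_eq_zero]
    have hle : ∀ χ : IrrCharacter G, ((χ : G → ℂ) v).re ≤ charDegree (χ : G → ℂ) := fun χ => by
      refine (Complex.re_le_norm _).trans ((norm_apply_le (isCharacter_of_isIrr χ.2) v).trans ?_)
      rw [apply_one_eq_charDegree (isCharacter_of_isIrr χ.2), Complex.norm_natCast]
    have h3 := (Finset.sum_eq_zero_iff_of_nonneg (fun χ _ => mul_nonneg (Nat.cast_nonneg _)
      (sub_nonneg.2 (hle χ)))).1 h2 χ (Finset.mem_univ _)
    have h4 : ((χ : G → ℂ) v).re = charDegree (χ : G → ℂ) :=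
      (sub_eq_zero.1 ((mul_eq_zero.1 h3).resolve_left (Nat.cast_ne_zero.2 hχ))).symm
    rw [apply_one_eq_charDegree (isCharacter_of_isIrr χ.2)]
    have h5 := norm_apply_le (isCharacter_of_isIrr χ.2) v
    rw [apply_one_eq_charDegree (isCharacter_of_isIrr χ.2), Complex.norm_natCast, ← h4] at h5
    have h6 : ((χ : G → ℂ) v).im = 0 := by
      have h7 : ‖(χ : G → ℂ) v‖ = ((χ : G → ℂ) v).re :=
        le_antisymm h5 (Complex.re_le_norm _)
      exact Complex.re_eq_norm.1 h7.symm |>.2.symm
    exact Complex.ext (by rw [h4, Complex.natCast_re]) (by rw [h6, Complex.natCast_im])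
  -- the trivial constituent
  set ι := Block.oneIrr G with hι
  have hι1 : ∀ g, (ι : G → ℂ) g = 1 := fun g => rfl
  have hc1 : c ι = 1 := by
    refine Nat.cast_injective (R := ℂ) ?_
    rw [← hcdef, Nat.cast_one, ← classInner_irr_self ψ.2]
    simp only [classInner, hι1, map_one, mul_one, hΦ]
  have hm1 : mult ι (phi lamOne (oneTh P)) = 1 := by
    refine Nat.cast_injective (R := ℂ) ?_
    rw [← mult_spec, Nat.cast_one, ← classInner_irr_self (phi lamOne (oneTh P)).2]
    refine congrArg (fun f => classInner f _) (funext fun c => ?_)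
    show (1 : ℂ) = (((lamOne : Lam P).1 c : ℂˣ) : ℂ) * ((oneTh P).1 : C P → ℂ) c
    rw [show ((oneTh P).1 : C P → ℂ) c = 1 from rfl, mul_one]
    rfl
  have hdodd : ∀ χ : IrrCharacter G, Odd (charDegree (χ : G → ℂ)) := fun χ =>
    hodd.of_dvd_nat (Lib.Char.charDegree_dvd_card χ.2)
  have hnat : ∀ χ, χ ≠ ι → (p + 1) * (c χ * mult χ (phi lamOne (oneTh P))) +
      (if p = 2 * d + 1 then c χ else 0) ≤ 2 * (c χ * charDegree (χ : G → ℂ)) := by
    intro χ hχ
    by_cases h0 : c χ = 0
    · simp [h0]
    · have hne : ∃ g, (χ : G → ℂ) g ≠ 1 := by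
        by_contra hh
        push Not at hh
        exact hχ (Subtype.ext (funext fun g => (hh g).trans (hι1 g).symm))
      have := mult_bound hM hmin hVC hVp hVreg hcard (htrivV χ h0) hne
      split_ifs with hpd
      · have hlt : (p + 1) * mult χ (phi lamOne (oneTh P)) < 2 * charDegree (χ : G → ℂ) := by
          refine lt_of_le_of_ne this fun heq => Nat.not_even_iff_odd.2 (hdodd χ) ?_
          have hde : Odd d := hdodd ψ
          have e : charDegree (χ : G → ℂ) = (d + 1) * mult χ (phi lamOne (oneTh P)) := by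
            rw [show p + 1 = 2 * (d + 1) by omega, mul_assoc] at heq
            omega
          rw [e]
          exact (hde.add_one).mul_right _
        nlinarith
      · nlinarith
  -- the multiplicity of the trivial character
  have hM0 : d ≤ ∑ χ : IrrCharacter G, c χ * mult χ (phi lamOne (oneTh P)) := by
    have hres := isClassFunction_of_isCharacter
      (isCharacter_restrict (isCharacter_of_isIrr ψ.2) (C P))
    have e1 : ((∑ χ : IrrCharacter G, c χ * mult χ (phi lamOne (oneTh P)) : ℕ) : ℂ) =
        classInner (fun a : C P => (ψ : G → ℂ) a) (fun a : C P => (ψ : G → ℂ) a) := by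
      push_cast
      simp only [← mult_spec, classInner, Finset.mul_sum]
      rw [Finset.sum_comm]
      refine Finset.sum_congr rfl fun a _ => ?_
      rw [show (phi lamOne (oneTh P) : C P → ℂ) a = 1 from by
        show ((((lamOne : Lam P).1 a : ℂˣ)) : ℂ) * ((oneTh P).1 : C P → ℂ) a = 1
        rw [show ((oneTh P).1 : C P → ℂ) a = 1 from rfl, mul_one]
        rfl, map_one]
      rw [show (ψ : G → ℂ) a * conj ((ψ : G → ℂ) a) = Φ a from rfl, hexp, Finset.mul_sum]
      exact Finset.sum_congr rfl fun χ _ => by ring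
    rw [classInner_eq_sum hres] at e1
    simp only [mult_spec, map_natCast] at e1
    norm_cast at e1
    rw [e1]
    have e2 : (d : ℂ) = ((∑ φ : IrrCharacter (C P), mult ψ φ : ℕ) : ℂ) := by
      have h := restrict_eq ψ (1 : C P)
      rw [OneMemClass.coe_one, hψ1] at h
      rw [h]
      push_cast
      exact Finset.sum_congr rfl fun φ _ => by rw [hlin, mul_one]
    rw [Nat.cast_injective (R := ℂ) e2]
    exact Finset.sum_le_sum fun φ _ => Nat.le_mul_self _
  have hd2 : 2 ≤ d := by
    by_contra h
    have hd0 : d ≠ 0 := fun h0 => irr_degree_ne_zero ψ.2 (by rw [hψ1, h0, Nat.cast_zero])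
    exact linear_absurd hmin hf (by omega)
  have hmain : (p + 1) * d ≤ (p + 1) + 2 * (d ^ 2 - 1) := by
    have hdeg1 : charDegree (ι : G → ℂ) = 1 := charDegree_one
    calc (p + 1) * d ≤ (p + 1) * ∑ χ : IrrCharacter G, c χ * mult χ (phi lamOne (oneTh P)) :=
          Nat.mul_le_mul_left _ hM0
      _ = (p + 1) + ∑ χ ∈ Finset.univ.erase ι, (p + 1) * (c χ * mult χ (phi lamOne (oneTh P))) := by
          rw [← Finset.add_sum_erase _ _ (Finset.mem_univ ι), hc1, hm1, mul_add, Finset.mul_sum]
          ring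
      _ ≤ (p + 1) + ∑ χ ∈ Finset.univ.erase ι, 2 * (c χ * charDegree (χ : G → ℂ)) :=
          Nat.add_le_add_left (Finset.sum_le_sum fun χ hχ =>
            le_of_add_le_left (hnat χ (Finset.ne_of_mem_erase hχ))) _
      _ = _ := by
          rw [← Finset.mul_sum, ← hsumdeg, ← Finset.add_sum_erase _ _ (Finset.mem_univ ι), hc1,
            hdeg1, one_mul, Nat.add_sub_cancel_left]
  have : 1 ≤ d ^ 2 := Nat.one_le_pow _ _ (by omega)
  by_cases hpd : p = 2 * d + 1
  · -- all inequalities are equalities
    have hdeg1 : charDegree (ι : G → ℂ) = 1 := charDegree_one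
    have hsum := Finset.sum_le_sum fun χ (hχ : χ ∈ Finset.univ.erase ι) =>
      hnat χ (Finset.ne_of_mem_erase hχ)
    simp only [if_pos hpd, Finset.sum_add_distrib, ← Finset.mul_sum] at hsum
    have eA : ∑ χ : IrrCharacter G, c χ * mult χ (phi lamOne (oneTh P)) =
        1 + ∑ χ ∈ Finset.univ.erase ι, c χ * mult χ (phi lamOne (oneTh P)) := by
      rw [← Finset.add_sum_erase _ _ (Finset.mem_univ ι), hc1, hm1]
    have eB : d ^ 2 = 1 + ∑ χ ∈ Finset.univ.erase ι, c χ * charDegree (χ : G → ℂ) := by
      rw [← hsumdeg, ← Finset.add_sum_erase _ _ (Finset.mem_univ ι), hc1, hdeg1]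
    have hc0 : ∑ χ ∈ Finset.univ.erase ι, c χ = 0 := by
      rw [eA] at hM0
      have hmul := Nat.mul_le_mul_left (p + 1) hM0
      rw [mul_add] at hmul
      have e1 : (p + 1) * d = 2 * d ^ 2 + 2 * d := by rw [hpd]; ring
      have e2 : (p + 1) * 1 = 2 * d + 2 := by omega
      omega
    have hz : ∑ χ ∈ Finset.univ.erase ι, c χ * charDegree (χ : G → ℂ) = 0 :=
      Finset.sum_eq_zero fun χ hχ => by
        rw [Finset.sum_eq_zero_iff.1 hc0 χ hχ, zero_mul]
    nlinarith
  · have hlt : 2 * d + 1 < p := lt_of_le_of_ne hd (Ne.symm hpd)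
    zify [this] at hmain hlt
    nlinarith

/-- A faithful character of degree at most `(p - 1) / 2` of a group of odd order forces a normal
Sylow subgroup. -/
theorem sylow_normal_of_degree_le_of_odd (hM : IsPModular p M) :
    ∀ (n : ℕ) (H : Type u) [Group H] [Finite H] (P : Sylow p H), Nat.card H ≤ n →
      Odd (Nat.card H) →
      Nat.card (P : Subgroup H) = p → ∀ χ : H → ℂ, IsCharacter H χ →
      (∀ g : H, χ g = χ 1 → g = 1) → 2 * charDegree χ + 1 ≤ p → (P : Subgroup H).Normal := by
  intro n
  induction n with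
  | zero => intro H _ _ _ hH; exact absurd hH (by have := Nat.card_pos (α := H); omega)
  | succ n ih =>
    intro H _ _ P hcardH hodd hP χ hχ hf hd
    classical
    haveI := Fintype.ofFinite H
    have hp : p.Prime := Fact.out
    by_contra hnn
    -- proper subgroups and quotients
    have hsub : ∀ K : Subgroup H, (P : Subgroup H) ≤ K → K ≠ ⊤ → K ≤ N P := by
      intro K hPK hK
      have hlt : Nat.card K < Nat.card H :=
        lt_of_le_of_ne (Subgroup.card_le_card_group K)
          fun h => hK (Subgroup.eq_top_of_card_eq K h)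
      have hnorm := ih K (P.subtype hPK) (by omega)
        (hodd.of_dvd_nat (Subgroup.card_subgroup_dvd_card K)) (by
        rw [Sylow.coe_subtype, Nat.card_congr (Subgroup.subgroupOfEquivOfLe hPK).toEquiv, hP])
        (fun k : K => χ k) (isCharacter_restrict hχ K) (fun k hk => Subtype.ext (hf k hk))
        (by
          rw [show charDegree (fun k : K => χ k) = charDegree χ from Nat.cast_injective (R := ℂ) (by
            rw [← apply_one_eq_charDegree (isCharacter_restrict hχ K), ← apply_one_eq_charDegree hχ]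
            rfl)]
          exact hd)
      rw [Sylow.coe_subtype] at hnorm
      exact (Subgroup.normal_subgroupOf_iff_le_normalizer hPK).1 hnorm
    have hNtop : N P ≠ ⊤ := fun h => hnn (Subgroup.normalizer_eq_top_iff.1 h)
    have hgen : ∀ K : Subgroup H, K.Normal → (P : Subgroup H) ≤ K → K = ⊤ := by
      intro K hK hPK
      by_contra hne
      refine hnn ⟨fun y hy g => ?_⟩
      have hKN := hsub K hPK hne
      have hmem : g * y * g⁻¹ ∈ K := hK.conj_mem y (hPK hy) g
      refine mem_sylow_of_mem_normalizer (hKN hmem) ⟨?_, ?_⟩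
      · exact if y = 1 then 0 else 1
      · have e : orderOf (g * y * g⁻¹) = orderOf y := by
          simpa using (MulAut.conj g).orderOf_eq y
        rw [e]
        split_ifs with h1
        · rw [h1, orderOf_one, pow_zero]
        · rw [orderOf_of_mem hP hy h1, pow_one]
    have hmin : Minimal P := ⟨hP, hgen, hsub, hNtop⟩
    -- an irreducible constituent
    obtain ⟨x, hx, hx1⟩ := exists_mem_ne_one (P := P) hP
    obtain ⟨m, hm⟩ : ∃ m : IrrCharacter H → ℕ, ∀ g, χ g = ∑ ζ, (m ζ : ℂ) * (ζ : H → ℂ) g := by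
      choose m hm using fun ζ : IrrCharacter H => classInner_natCast hχ (isCharacter_of_isIrr ζ.2)
      refine ⟨m, fun g => ?_⟩
      conv_lhs => rw [eq_sum_classInner_smul (isClassFunction_of_isCharacter hχ)]
      simp only [Finset.sum_apply, Pi.smul_apply, smul_eq_mul, hm]
    obtain ⟨g₀, hg₀⟩ : ∃ g₀ : H, g₀ * x * g₀⁻¹ ∉ (P : Subgroup H) := by
      by_contra hcon
      push Not at hcon
      refine hnn ⟨fun y hy g => ?_⟩
      rw [← zpowers_eq_P hP hx hx1] at hy ⊢
      obtain ⟨i, rfl⟩ := hy
      show g * x ^ i * g⁻¹ ∈ Subgroup.zpowers x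
      rw [← conj_zpow, zpowers_eq_P hP hx hx1]
      exact (P : Subgroup H).zpow_mem (hcon g) i
    set c₀ := ⁅g₀ * x * g₀⁻¹, x⁆ with hc₀
    have hc₀1 : c₀ ≠ 1 := by
      intro h
      refine hg₀ (mem_sylow_of_mem_normalizer (C_le_N P ?_) ⟨1, ?_⟩)
      · show g₀ * x * g₀⁻¹ ∈ Subgroup.centralizer ((P : Subgroup H) : Set H)
        rw [← star_of_card hP x hx hx1, Subgroup.mem_centralizer_singleton_iff]
        exact commutatorElement_eq_one_iff_mul_comm.1 h
      · rw [pow_one, show orderOf (g₀ * x * g₀⁻¹) = orderOf x by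
          simpa using (MulAut.conj g₀).orderOf_eq x]
        exact orderOf_of_mem hP hx hx1
    obtain ⟨ψ, hψm, hψc₀⟩ : ∃ ψ : IrrCharacter H, m ψ ≠ 0 ∧ (ψ : H → ℂ) c₀ ≠ (ψ : H → ℂ) 1 := by
      by_contra hcon
      push Not at hcon
      refine hc₀1 (hf c₀ ?_)
      rw [hm, hm]
      refine Finset.sum_congr rfl fun ζ _ => ?_
      by_cases h : m ζ = 0
      · simp [h]
      · rw [hcon ζ h]
    have hψd : charDegree (ψ : H → ℂ) ≤ charDegree χ := by
      have e : charDegree χ = ∑ ζ, m ζ * charDegree (ζ : H → ℂ) := Nat.cast_injective (R := ℂ) (by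
        rw [← apply_one_eq_charDegree hχ, hm]
        push_cast
        exact Finset.sum_congr rfl fun ζ _ => by
          rw [apply_one_eq_charDegree (isCharacter_of_isIrr ζ.2)])
      rw [e]
      exact (Nat.le_mul_of_pos_left _ (Nat.pos_of_ne_zero hψm)).trans
        (Finset.single_le_sum (f := fun ζ => m ζ * charDegree (ζ : H → ℂ))
          (fun _ _ => Nat.zero_le _) (Finset.mem_univ ψ))
    have hψc := isCharacter_of_isIrr ψ.2
    by_cases hfψ : ∀ g : H, (ψ : H → ℂ) g = (ψ : H → ℂ) 1 → g = 1
    · by_cases hN : N P = C P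
      · exact false_of_normalizer_eq hM hmin hN ψ hfψ (by have := Lib.Char.charDegree_pos ψ.2; omega)
      · exact false_of_normalizer_ne_of_odd hodd hM hmin hN ψ hfψ (by omega)
    · push Not at hfψ
      obtain ⟨g, hg, hg1⟩ := hfψ
      set K := charKer (ψ : H → ℂ)
      haveI hKn : K.Normal := charKer_normal hψc
      have hcK : c₀ ∉ K := fun h => hψc₀ ((mem_charKer hψc).1 h)
      have hxK : x ∉ K := fun h => hcK (by
        rw [hc₀, commutatorElement_def]
        exact K.mul_mem (K.mul_mem (K.mul_mem (hKn.conj_mem x h g₀) h)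
          (K.inv_mem (hKn.conj_mem x h g₀))) (K.inv_mem h))
      obtain ⟨χ', hχ', hval⟩ := exists_deflation hψc K fun k hk => (mem_charKer hψc).1 hk
      have hlt : Nat.card (H ⧸ K) < Nat.card H := by
        rw [← Subgroup.index_eq_card, ← K.index_mul_card]
        refine lt_mul_of_one_lt_right (Nat.pos_of_ne_zero Subgroup.index_ne_zero_of_finite) ?_
        exact Finite.one_lt_card_iff_nontrivial.2 ⟨⟨⟨g, (mem_charKer hψc).2 hg⟩, 1,
          fun e => hg1 (congrArg Subtype.val e)⟩⟩
      let Q := P.mapSurjective (QuotientGroup.mk'_surjective K)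
      have hQc : Nat.card (Q : Subgroup (H ⧸ K)) = p := by
        rw [Sylow.coe_mapSurjective, ← zpowers_eq_P hP hx hx1, MonoidHom.map_zpowers,
          Nat.card_zpowers]
        refine orderOf_eq_prime ?_ fun h => hxK ((QuotientGroup.eq_one_iff x).1 h)
        rw [← map_pow, ← orderOf_of_mem hP hx hx1, pow_orderOf_eq_one, map_one]
      have hf' : ∀ q : H ⧸ K, χ' q = χ' 1 → q = 1 := by
        intro q hq
        obtain ⟨h, rfl⟩ := QuotientGroup.mk_surjective q
        rw [QuotientGroup.eq_one_iff]
        refine (mem_charKer hψc).2 ?_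
        rw [← hval h, ← hval 1, QuotientGroup.mk_one]
        exact hq
      have hd' : charDegree χ' = charDegree (ψ : H → ℂ) := Nat.cast_injective (R := ℂ) (by
        rw [← apply_one_eq_charDegree hχ', ← apply_one_eq_charDegree hψc, ← hval 1,
          QuotientGroup.mk_one])
      have hn' := ih (H ⧸ K) Q (by omega)
        (hodd.of_dvd_nat (Subgroup.card_quotient_dvd_card K)) hQc χ' hχ' hf' (by omega)
      rw [Sylow.coe_mapSurjective] at hn'
      have hL := hn'.comap (QuotientGroup.mk' K)
      rw [Subgroup.comap_map_eq, QuotientGroup.ker_mk'] at hL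
      have htop := hgen _ hL le_sup_left
      refine hcK ?_
      have hQtop : (P : Subgroup H).map (QuotientGroup.mk' K) = ⊤ := by
        have := congrArg (Subgroup.map (QuotientGroup.mk' K)) htop
        rwa [Subgroup.map_sup, QuotientGroup.map_mk'_self, sup_bot_eq,
          Subgroup.map_top_of_surjective _ (QuotientGroup.mk'_surjective K)] at this
      have hab : ∀ a b : H ⧸ K, a * b = b * a := by
        intro a b
        obtain ⟨a', ha, rfl⟩ := (hQtop ▸ Subgroup.mem_top a :
          a ∈ (P : Subgroup H).map (QuotientGroup.mk' K))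
        obtain ⟨b', hb, rfl⟩ := (hQtop ▸ Subgroup.mem_top b :
          b ∈ (P : Subgroup H).map (QuotientGroup.mk' K))
        rw [← map_mul, ← map_mul,
          Subgroup.mem_centralizer_iff.1 (le_C (star_of_card hP) hb) a' ha]
      rw [← QuotientGroup.eq_one_iff]
      show QuotientGroup.mk' K c₀ = 1
      rw [hc₀, map_commutatorElement]
      exact commutatorElement_eq_one_iff_mul_comm.2 (hab _ _)

end Cfsg.Agent.Lib.DefectOne
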